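import Mathlib
import Cfsg.Prelude.Def_Solvable
import Cfsg.Agent.Lib.Cores.PCore

/-!
Class numbers of groups of order `2 ^ a * 5` over a self-centralizing normal subgroup of order 32 with centre of
order two.
-/

set_option autoImplicit false
set_option linter.unusedSectionVars false
set_option linter.style.haveILetI false

namespace CfsgLib.CoprimeTransitive.ExtraspecialCount

open Subgroup

variable {H : Type*} [Group H] [Finite H] {N : Subgroup H}

/-- The fixed points of an automorphism of prime order of a group of order 16. -/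
theorem fixed_five {W : Type*} [Group W] [Finite W] (hW : Nat.card W = 16) (σ : MulAut W) (hσ : σ ^ 5 = 1)
    {w : W} (hw : σ w = w) (hw1 : w ≠ 1) : σ = 1 := by
  haveI : Fact (Nat.Prime 5) := ⟨by norm_num⟩
  let S := Subgroup.zpowers σ
  have hS : IsPGroup 5 S := fun a => by
    refine ⟨1, ?_⟩
    obtain ⟨i, hi⟩ := Subgroup.mem_zpowers_iff.1 a.2
    refine Subtype.ext ?_
    rw [SubmonoidClass.coe_pow, Subgroup.coe_one, ← hi, pow_one, ← zpow_natCast, ← zpow_mul, mul_comm,
      zpow_mul, zpow_natCast, hσ, one_zpow]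
  let F : Subgroup W := MonoidHom.eqLocus σ.toMonoidHom (MonoidHom.id _)
  have hmod := hS.card_modEq_card_fixedPoints W
  have hFeq : Nat.card (MulAction.fixedPoints S W) = Nat.card F := by
    refine Nat.card_congr (Equiv.subtypeEquivRight fun a => ⟨fun h => ?_, fun h g => ?_⟩)
    · exact h ⟨σ, Subgroup.mem_zpowers σ⟩
    · have hsub : S ≤ MulAction.stabilizer (MulAut W) a := Subgroup.zpowers_le.2 h
      exact hsub g.2
  rw [hFeq, hW] at hmod
  have hdvd : Nat.card F ∣ 16 := hW ▸ F.card_subgroup_dvd_card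
  have h2 : 2 ≤ Nat.card F := by
    haveI : Nontrivial F := ⟨⟨⟨w, hw⟩, 1, fun h => hw1 (congrArg Subtype.val h)⟩⟩
    exact Finite.one_lt_card
  have h16 : Nat.card F = 16 := by
    have hle := Nat.le_of_dvd (by norm_num) hdvd
    unfold Nat.ModEq at hmod
    interval_cases h : Nat.card F <;> simp_all
  have htop : F = ⊤ := Subgroup.eq_top_of_card_eq F (by rw [h16, hW])
  exact MulEquiv.ext fun a => (htop ▸ Subgroup.mem_top a : a ∈ F)

/-- A normal 2-subgroup of a group acting on a group of order 16 with an element of order 5 acts trivially. -/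
theorem two_group_trivial {M W : Type*} [Group M] [Finite M] [Group W] [Finite W] (hW : Nat.card W = 16)
    (φ : M →* MulAut W) (hφ : Function.Injective φ) {y : M} (hy : orderOf y = 5) {D : Subgroup M}
    (hD : IsPGroup 2 D) (hnorm : ∀ d ∈ D, y * d * y⁻¹ ∈ D) : D = ⊥ := by
  classical
  haveI : Fact (Nat.Prime 2) := ⟨Nat.prime_two⟩
  haveI : Fact (Nat.Prime 5) := ⟨by norm_num⟩
  let _ : MulAction D W := MulAction.compHom W (φ.comp D.subtype)
  have hmod := hD.card_modEq_card_fixedPoints W
  let F : Subgroup W :=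
    { carrier := {w | ∀ d ∈ D, φ d w = w}
      one_mem' := fun d _ => map_one _
      mul_mem' := fun ha hb d hd => by rw [map_mul, ha d hd, hb d hd]
      inv_mem' := fun ha d hd => by rw [map_inv, ha d hd] }
  have hF : Nat.card (MulAction.fixedPoints D W) = Nat.card F :=
    Nat.card_congr (Equiv.subtypeEquivRight fun w => ⟨fun h d hd => h ⟨d, hd⟩, fun h d => h d d.2⟩)
  rw [hF, hW] at hmod
  have hdvd : Nat.card F ∣ 16 := hW ▸ F.card_subgroup_dvd_card
  have hF2 : 2 ≤ Nat.card F := by
    rcases Nat.lt_or_ge (Nat.card F) 2 with h | h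
    · have := Nat.card_pos (α := F)
      rw [show Nat.card F = 1 by omega] at hmod
      norm_num [Nat.ModEq] at hmod
    · exact h
  haveI : Nontrivial F := Finite.one_lt_card_iff_nontrivial.1 hF2
  obtain ⟨w, hw⟩ := exists_ne (1 : F)
  have hinv : ∀ (a : W), a ∈ F → φ y a ∈ F := by
    intro a ha d hd
    have hd' : y⁻¹ * d * y ∈ D := by
      have : ∀ i : ℕ, y ^ i * d * (y ^ i)⁻¹ ∈ D := by
        intro i
        induction i with
        | zero => simpa using hd
        | succ i ih =>
          have := hnorm _ ih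
          convert this using 1
          rw [pow_succ']; group
      have h4 := this 4
      rwa [show y ^ 4 = y⁻¹ from eq_inv_of_mul_eq_one_left
        (by rw [← pow_succ]; exact orderOf_dvd_iff_pow_eq_one.1 (dvd_of_eq hy)), inv_inv] at h4
    calc φ d (φ y a) = φ (d * y) a := by rw [map_mul]; rfl
      _ = φ (y * (y⁻¹ * d * y)) a := by rw [show y * (y⁻¹ * d * y) = d * y by group]
      _ = φ y a := by rw [map_mul, MulAut.mul_apply, ha _ hd']
  have hFtop : F = ⊤ := by
    let σ : MulAut W := φ y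
    let S := Subgroup.zpowers σ
    have hS : IsPGroup 5 S := fun a => by
      refine ⟨1, ?_⟩
      obtain ⟨i, hi⟩ := Subgroup.mem_zpowers_iff.1 a.2
      refine Subtype.ext ?_
      rw [SubmonoidClass.coe_pow, Subgroup.coe_one, ← hi, pow_one, ← zpow_natCast, ← zpow_mul, mul_comm,
        zpow_mul, zpow_natCast, ← map_pow, ← hy, pow_orderOf_eq_one, map_one, one_zpow]
    have hmem : ∀ g ∈ S, ∀ a ∈ F, g a ∈ F := by
      intro g hg a ha
      obtain ⟨i, rfl⟩ := (Submonoid.mem_powers_iff _ _).1
        (mem_powers_iff_mem_zpowers.2 hg : g ∈ Submonoid.powers σ)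
      clear hg
      induction i generalizing a with
      | zero => simpa using ha
      | succ i ih =>
        rw [pow_succ, MulAut.mul_apply]
        exact ih _ (hinv a ha)
    let _ : MulAction S F :=
      { smul := fun g a => ⟨(g : MulAut W) a.1, hmem g g.2 a.1 a.2⟩
        one_smul := fun a => Subtype.ext rfl
        mul_smul := fun g g' a => Subtype.ext rfl }
    have hmod5 := hS.card_modEq_card_fixedPoints F
    by_contra hne
    have hF16 : Nat.card F ≠ 16 := fun h => hne (Subgroup.eq_top_of_card_eq F (by rw [h, hW]))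
    have hfix : ∀ a : F, a ∈ MulAction.fixedPoints S F → a = 1 := by
      intro a ha
      by_contra ha1
      have hσ : φ y = 1 := fixed_five hW σ (by rw [← map_pow, ← hy, pow_orderOf_eq_one, map_one])
        (congrArg Subtype.val (ha ⟨σ, Subgroup.mem_zpowers σ⟩)) (fun h => ha1 (Subtype.ext h))
      have hy1 : y = 1 := hφ (by rw [hσ, map_one])
      rw [hy1, orderOf_one] at hy
      omega
    have hone : Nat.card (MulAction.fixedPoints S F) = 1 := by
      rw [Nat.card_eq_one_iff_unique]
      exact ⟨⟨fun a b => Subtype.ext ((hfix a.1 a.2).trans (hfix b.1 b.2).symm)⟩,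
        ⟨⟨1, fun g => Subtype.ext (map_one (g : MulAut W))⟩⟩⟩
    rw [hone] at hmod5
    have hle := Nat.le_of_dvd (by norm_num) hdvd
    unfold Nat.ModEq at hmod5
    interval_cases h : Nat.card F <;> simp_all
  refine (Subgroup.eq_bot_iff_forall D).2 fun d hd => hφ ?_
  rw [map_one]
  refine MulEquiv.ext fun a => ?_
  exact (show a ∈ F from hFtop ▸ Subgroup.mem_top a) d hd

/-- A solvable group of order dividing `2 ^ a * 5` acting faithfully on a group of order 16, of order divisible
by 5. -/
theorem quotient_structure {M W : Type*} [Group M] [Finite M] [Group W] [Finite W] (hW : Nat.card W = 16)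
    (φ : M →* MulAut W) (hφ : Function.Injective φ) [Group.IsSolvable M] {a : ℕ}
    (hM : Nat.card M ∣ 2 ^ a * 5) (h5 : 5 ∣ Nat.card M) :
    ∃ A : Subgroup M, A.Normal ∧ Nat.card A = 5 ∧ Subgroup.centralizer (A : Set M) = A := by
  classical
  haveI : Fact (Nat.Prime 2) := ⟨Nat.prime_two⟩
  haveI : Fact (Nat.Prime 5) := ⟨by norm_num⟩
  obtain ⟨y, hy⟩ := exists_prime_orderOf_dvd_card' 5 h5
  have hO : Cfsg.pCore 2 M = ⊥ :=
    two_group_trivial hW φ hφ hy (CfsgLib.Cores.isPGroup_pCore 2 M)
      (fun d hd => (inferInstance : (Cfsg.pCore 2 M).Normal).conj_mem d hd y)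
  obtain ⟨B, hB, hBne, hBab⟩ : ∃ B : Subgroup M, B.Normal ∧ B ≠ ⊥ ∧ IsMulCommutative B := by
    obtain ⟨n, hn⟩ := (inferInstance : Group.IsSolvable M).solvable
    haveI : Nontrivial M := ⟨⟨y, 1, fun h => by rw [h, orderOf_one] at hy; omega⟩⟩
    have h0 : derivedSeries M 0 ≠ ⊥ := by rw [derivedSeries_zero]; exact top_ne_bot
    have hex : ∃ k, derivedSeries M k = ⊥ := ⟨n, hn⟩
    obtain ⟨k, hk⟩ : ∃ k, Nat.find hex = k + 1 :=
      ⟨Nat.find hex - 1, by
        have : Nat.find hex ≠ 0 := fun h => h0 (h ▸ Nat.find_spec hex)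
        omega⟩
    refine ⟨derivedSeries M k, derivedSeries_normal M k, Nat.find_min hex (by omega), ?_⟩
    refine IsMulCommutative.of_comm fun u v => Subtype.ext ?_
    have h1 := Nat.find_spec hex
    rw [hk, derivedSeries_succ, Subgroup.commutator_eq_bot_iff_le_centralizer] at h1
    exact Subgroup.mem_centralizer_iff.1 (h1 v.2) u u.2
  -- the Sylow five subgroup
  obtain ⟨P⟩ : Nonempty (Sylow 5 M) := inferInstance
  haveI : B.Normal := hB
  have h2B : ∀ b ∈ B, (∃ k, b ^ 2 ^ k = 1) → b = 1 := by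
    intro b hb hk
    let T : Subgroup M :=
      { carrier := {t | t ∈ B ∧ ∃ k, t ^ 2 ^ k = 1}
        one_mem' := ⟨B.one_mem, 0, one_pow _⟩
        mul_mem' := fun {u v} hu hv => by
          obtain ⟨hu, i, hi⟩ := hu
          obtain ⟨hv, j, hj⟩ := hv
          refine ⟨B.mul_mem hu hv, i + j, ?_⟩
          have hc : Commute u v := congrArg Subtype.val (hBab.is_comm.comm ⟨u, hu⟩ ⟨v, hv⟩)
          rw [hc.mul_pow, pow_add, pow_mul, hi, one_pow, one_mul, mul_comm, pow_mul, hj, one_pow]
        inv_mem' := fun {u} ⟨hu, i, hi⟩ => ⟨B.inv_mem hu, i, by rw [inv_pow, hi, inv_one]⟩ }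
    haveI : T.Normal := ⟨fun t ⟨ht, i, hi⟩ g => ⟨hB.conj_mem t ht g, i, by rw [conj_pow, hi]; group⟩⟩
    have hT : IsPGroup 2 T := fun t => by
      obtain ⟨-, i, hi⟩ := t.2
      exact ⟨i, Subtype.ext hi⟩
    have : T ≤ Cfsg.pCore 2 M := CfsgLib.Cores.le_pCore hT
    rw [hO, le_bot_iff] at this
    exact Subgroup.mem_bot.1 (this ▸ (show b ∈ T from ⟨hb, hk⟩))
  have hB5 : Nat.card B = 5 := by
    have hdvd : Nat.card B ∣ 2 ^ a * 5 := B.card_subgroup_dvd_card.trans hM
    have hodd : ¬ 2 ∣ Nat.card B := fun h => by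
      obtain ⟨b, hb⟩ := exists_prime_orderOf_dvd_card' 2 h
      have := h2B b b.2 ⟨1, by rw [← SubmonoidClass.coe_pow, pow_one, ← hb, pow_orderOf_eq_one]; rfl⟩
      rw [OneMemClass.coe_eq_one] at this
      rw [this, orderOf_one] at hb
      omega
    have h' : Nat.card B ∣ 5 :=
      (Nat.Coprime.pow_right a ((Nat.prime_two.coprime_iff_not_dvd.2 hodd).symm)).dvd_of_dvd_mul_left hdvd
    rcases (Nat.dvd_prime (by norm_num : Nat.Prime 5)).1 h' with h | h
    · exact absurd (Subgroup.eq_bot_of_card_eq B h) hBne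
    · exact h
  refine ⟨B, hB, hB5, le_antisymm ?_ fun u hu => Subgroup.mem_centralizer_iff.2 fun v hv =>
    congrArg Subtype.val (hBab.is_comm.comm ⟨v, hv⟩ ⟨u, hu⟩)⟩
  obtain ⟨b, hb⟩ := exists_prime_orderOf_dvd_card' 5 (dvd_of_eq hB5.symm)
  have hbord : orderOf (b : M) = 5 := by rw [Subgroup.orderOf_coe, hb]
  have hCcard : Nat.card (Subgroup.centralizer (B : Set M)) ∣ 5 := by
    have hdvd := (Subgroup.centralizer (B : Set M)).card_subgroup_dvd_card.trans hM
    have hodd : ¬ 2 ∣ Nat.card (Subgroup.centralizer (B : Set M)) := fun h => by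
      obtain ⟨u, hu⟩ := exists_prime_orderOf_dvd_card' 2 h
      have hu1 : (u : M) ≠ 1 := fun h => by
        rw [OneMemClass.coe_eq_one] at h
        rw [h, orderOf_one] at hu
        omega
      refine hu1 ?_
      have hD : IsPGroup 2 (Subgroup.zpowers (u : M)) :=
        IsPGroup.of_card (n := 1) (by rw [Nat.card_zpowers, Subgroup.orderOf_coe, hu, pow_one])
      have hnorm : ∀ d ∈ Subgroup.zpowers (u : M), (b : M) * d * (b : M)⁻¹ ∈ Subgroup.zpowers (u : M) := by
        intro d hd
        obtain ⟨i, rfl⟩ := Subgroup.mem_zpowers_iff.1 hd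
        have hc : Commute (b : M) (u : M) := Subgroup.mem_centralizer_iff.1 u.2 b b.2
        rw [(hc.zpow_right i).eq, mul_inv_cancel_right]
        exact zpow_mem (Subgroup.mem_zpowers _) i
      exact Subgroup.mem_bot.1 (two_group_trivial hW φ hφ hbord hD hnorm ▸ Subgroup.mem_zpowers _)
    exact (Nat.Coprime.pow_right a ((Nat.prime_two.coprime_iff_not_dvd.2 hodd).symm)).dvd_of_dvd_mul_left hdvd
  have hle : B ≤ Subgroup.centralizer (B : Set M) := fun u hu => Subgroup.mem_centralizer_iff.2 fun v hv =>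
    congrArg Subtype.val (hBab.is_comm.comm ⟨v, hv⟩ ⟨u, hu⟩)
  exact (Subgroup.eq_of_le_of_card_ge hle (by
    rw [hB5]; exact Nat.le_of_dvd (by norm_num) hCcard)).ge

/-- The conjugacy classes meeting a set all of whose classes are large. -/
theorem classes_mul_le {M : Type*} [Group M] [Finite M] (S : Set M) (m : ℕ)
    (hinv : ∀ u ∈ S, ∀ g : M, g * u * g⁻¹ ∈ S)
    (hm : ∀ u ∈ S, m ≤ (Subgroup.centralizer ({u} : Set M)).index) :
    m * (ConjClasses.mk '' S).ncard ≤ S.ncard := by
  classical
  haveI := Fintype.ofFinite M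
  have h := Finset.mul_card_image_le_card S.toFinset (f := ConjClasses.mk) m fun c hc => by
    obtain ⟨u, hu, rfl⟩ := Finset.mem_image.1 hc
    rw [Set.mem_toFinset] at hu
    refine (hm u hu).trans (le_of_eq ?_)
    rw [← Nat.card_eq_finsetCard]
    have h1 : (Subgroup.centralizer ({u} : Set M)).index = Nat.card (MulAction.orbit (ConjAct M) u) := by
      rw [Nat.card_congr (MulAction.orbitEquivQuotientStabilizer (ConjAct M) u), ← Subgroup.index_eq_card,
        ConjAct.stabilizer_eq_centralizer]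
      rfl
    rw [h1]
    refine Nat.card_congr (Equiv.subtypeEquivRight fun w => ?_)
    rw [Finset.mem_filter, ConjClasses.mk_eq_mk_iff_isConj, ← ConjAct.mem_orbit_conjAct, Set.mem_toFinset]
    refine ⟨fun h => ⟨?_, h⟩, fun h => h.2⟩
    obtain ⟨g, hg⟩ := isConj_iff.1 (ConjAct.mem_orbit_conjAct.1 h)
    have := hinv u hu g⁻¹
    rw [← hg] at this
    simpa [mul_assoc] using this
  have e1 : S.toFinset.card = S.ncard := (Set.ncard_eq_toFinset_card' S).symm
  have e2 : (S.toFinset.image ConjClasses.mk).card = (ConjClasses.mk '' S).ncard := by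
    rw [← Set.ncard_coe_finset, Finset.coe_image, Set.coe_toFinset]
  rw [e1, e2] at h
  exact h

/-- The class number of a group with a self-centralizing subgroup of order five. -/
theorem quotient_classes {M : Type*} [Group M] [Finite M] {A : Subgroup M} [A.Normal]
    (hA : Nat.card A = 5) (hC : Subgroup.centralizer (A : Set M) = A) :
    Nat.card M ∣ 20 ∧ 5 ∣ Nat.card M ∧ Nat.card (ConjClasses M) ≤ 5 := by
  classical
  haveI : Fact (Nat.Prime 5) := ⟨by norm_num⟩
  haveI : IsCyclic A := isCyclic_of_prime_card hA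
  haveI : Finite (MulAut A) := inferInstance
  set φ : M →* MulAut A := MulAut.conjNormal
  have hker : φ.ker = A := by
    refine SetLike.ext fun g => ?_
    rw [MonoidHom.mem_ker, ← SetLike.ext_iff.1 hC g, Subgroup.mem_centralizer_iff]
    constructor
    · intro h a ha
      have := congrArg (fun σ : MulAut A => ((σ ⟨a, ha⟩ : A) : M)) h
      simp only [φ, MulAut.conjNormal_apply, MulAut.one_apply] at this
      exact (mul_inv_eq_iff_eq_mul.1 this).symm
    · intro h
      refine MulEquiv.ext fun a => Subtype.ext ?_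
      simp only [φ, MulAut.conjNormal_apply, MulAut.one_apply]
      rw [← h a a.2, mul_inv_cancel_right]
  have hidx : A.index ∣ 4 := by
    rw [← hker, Subgroup.index_ker]
    refine φ.range.card_subgroup_dvd_card.trans (dvd_of_eq ?_)
    rw [IsCyclic.card_mulAut, hA, Nat.totient_prime (by norm_num)]
  have hcard : Nat.card M = 5 * A.index := by rw [← A.card_mul_index, hA]
  have hidx0 : 0 < A.index := Nat.pos_of_ne_zero Subgroup.index_ne_zero_of_finite
  refine ⟨?_, ⟨A.index, hcard⟩, ?_⟩
  · rw [hcard, show (20 : ℕ) = 5 * 4 by norm_num]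
    exact Nat.mul_dvd_mul_left 5 hidx
  -- classes outside and inside
  have hgen : ∀ a ∈ A, a ≠ 1 → Subgroup.zpowers a = A := by
    intro a ha ha1
    refine Subgroup.eq_of_le_of_card_ge (Subgroup.zpowers_le.2 ha) ?_
    rw [Nat.card_zpowers, hA]
    have h1 : orderOf a ∣ 5 := by
      rw [← hA, ← Subgroup.orderOf_mk a ha]
      exact orderOf_dvd_natCard _
    rcases (Nat.dvd_prime (by norm_num)).1 h1 with h | h
    · exact absurd (orderOf_eq_one_iff.1 h) ha1
    · rw [h]
  have hin : ∀ a ∈ A, a ≠ 1 → (Subgroup.centralizer ({a} : Set M)).index = A.index := by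
    intro a ha ha1
    congr 1
    refine le_antisymm (fun g hg => ?_) fun g hg => ?_
    · rw [← SetLike.ext_iff.1 hC g, Subgroup.mem_centralizer_iff]
      intro b hb
      rw [SetLike.mem_coe, ← hgen a ha ha1] at hb
      obtain ⟨i, rfl⟩ := Subgroup.mem_zpowers_iff.1 hb
      exact ((show Commute g a from Subgroup.mem_centralizer_singleton_iff.1 hg).zpow_right i).eq.symm
    · rw [Subgroup.mem_centralizer_singleton_iff]
      exact (Subgroup.mem_centralizer_iff.1 ((SetLike.ext_iff.1 hC g).2 hg) a ha).symm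
  have hout : ∀ u : M, u ∉ A → 5 ≤ (Subgroup.centralizer ({u} : Set M)).index := by
    intro u hu
    set C := Subgroup.centralizer ({u} : Set M)
    have hinf : A ⊓ C = ⊥ := by
      refine (Subgroup.eq_bot_iff_forall _).2 fun a ha => ?_
      obtain ⟨haA, haC⟩ := Subgroup.mem_inf.1 ha
      by_contra ha1
      refine hu ?_
      rw [← SetLike.ext_iff.1 hC u, Subgroup.mem_centralizer_iff]
      intro b hb
      rw [SetLike.mem_coe, ← hgen a haA ha1] at hb
      obtain ⟨i, rfl⟩ := Subgroup.mem_zpowers_iff.1 hb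
      exact ((show Commute a u from Subgroup.mem_centralizer_singleton_iff.1 haC).zpow_left i).eq
    have h1 : C.relIndex A = 5 := by
      rw [← Subgroup.inf_relIndex_right, inf_comm, hinf, Subgroup.relIndex_bot_left, hA]
    have h2 : C.relIndex A ≤ C.index := by
      rw [← Subgroup.relIndex_top_right]
      exact Subgroup.relIndex_le_of_le_right le_top
        (by rw [Subgroup.relIndex_top_right]; exact Subgroup.index_ne_zero_of_finite)
    omega
  have h1 := classes_mul_le ((A : Set M) \ {1}) A.index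
    (fun u hu g => ⟨(inferInstance : A.Normal).conj_mem u hu.1 g, fun h => hu.2 (by simpa using h)⟩)
    (fun u hu => (hin u hu.1 hu.2).ge)
  have h2 := classes_mul_le ((A : Set M)ᶜ) 5
    (fun u hu g h => hu (by simpa [mul_assoc] using (inferInstance : A.Normal).conj_mem _ h g⁻¹)) hout
  have hn1 : ((A : Set M) \ {1}).ncard = 4 := by
    rw [Set.ncard_sdiff_singleton_of_mem A.one_mem, ← Nat.card_coe_set_eq, show Nat.card (A : Set M) = 5 from hA]
  have hn2 : ((A : Set M)ᶜ).ncard = 5 * A.index - 5 := by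
    rw [Set.ncard_compl, hcard, ← Nat.card_coe_set_eq, show Nat.card (A : Set M) = 5 from hA]
  rw [hn1] at h1
  rw [hn2] at h2
  have hcover : (Set.univ : Set (ConjClasses M)) ⊆
      {ConjClasses.mk 1} ∪ ConjClasses.mk '' ((A : Set M) \ {1}) ∪ ConjClasses.mk '' (A : Set M)ᶜ := by
    intro c _
    obtain ⟨u, rfl⟩ := ConjClasses.mk_surjective c
    by_cases hu : u ∈ A
    · by_cases hu1 : u = 1
      · exact Or.inl (Or.inl (by rw [hu1]; rfl))
      · exact Or.inl (Or.inr ⟨u, ⟨hu, hu1⟩, rfl⟩)
    · exact Or.inr ⟨u, hu, rfl⟩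
  have h3 := Set.ncard_le_ncard hcover (Set.toFinite _)
  rw [Set.ncard_univ] at h3
  have h4 := Set.ncard_union_le ({ConjClasses.mk 1} ∪ ConjClasses.mk '' ((A : Set M) \ {1})) (ConjClasses.mk '' (A : Set M)ᶜ)
  have h5 := Set.ncard_union_le {ConjClasses.mk (1 : M)} (ConjClasses.mk '' ((A : Set M) \ {1}))
  rw [Set.ncard_singleton] at h5
  have h4idx := Nat.le_of_dvd (by norm_num) hidx
  interval_cases A.index <;> omega

/-- Homomorphisms from a group of order 32 with derived group in a subgroup of order two into that subgroup. -/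
theorem card_hom_le {N Z : Type*} [Group N] [Finite N] [CommGroup Z] [Finite Z] (hZ : Nat.card Z = 2)
    (z : N) (hz : z ≠ 1) (hzc : ∀ x : N, Commute z x) (hzd : z ∈ commutator N) :
    Nat.card (N →* Z) * 2 ≤ Nat.card N := by
  classical
  haveI : IsCyclic Z := isCyclic_of_prime_card (hp := ⟨Nat.prime_two⟩) hZ
  obtain ⟨j, hj⟩ : ∃ j : Z →* ℂˣ, Function.Injective j := by
    obtain ⟨e⟩ : Nonempty (Z ≃* (Multiplicative (ZMod 2))) :=
      ⟨mulEquivOfPrimeCardEq (p := 2) hZ ((Nat.card_congr Multiplicative.toAdd).trans (Nat.card_zmod 2))⟩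
    obtain ⟨χ⟩ : Nonempty ((Z →* ℂˣ) ≃* Z) := CommGroup.monoidHom_mulEquiv_of_hasEnoughRootsOfUnity Z ℂ
    obtain ⟨g, hg⟩ := IsCyclic.exists_ofOrder_eq_natCard (α := Z)
    haveI : Nontrivial (Z →* ℂˣ) := by
      haveI : Nontrivial Z := Finite.one_lt_card_iff_nontrivial.1 (by omega)
      exact χ.toEquiv.nontrivial
    obtain ⟨j, hj⟩ := exists_ne (1 : Z →* ℂˣ)
    refine ⟨j, (injective_iff_map_eq_one j).2 fun a ha => ?_⟩
    by_contra ha1
    refine hj (MonoidHom.ext fun b => ?_)
    have hgen : Subgroup.zpowers a = ⊤ := Subgroup.eq_top_of_card_eq _ (by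
      rw [Nat.card_zpowers, hZ]
      exact orderOf_eq_prime (by rw [← hZ, pow_card_eq_one']) ha1)
    obtain ⟨i, rfl⟩ := Subgroup.mem_zpowers_iff.1 (hgen ▸ Subgroup.mem_top b)
    simp [map_zpow, ha]
  have hinj : Function.Injective (fun f : N →* Z => (Abelianization.lift (j.comp f) : Abelianization N →* ℂˣ)) := by
    intro f g h
    refine MonoidHom.ext fun x => hj ?_
    have := congrArg (fun F : Abelianization N →* ℂˣ => F (Abelianization.of x)) h
    simpa using this
  have h1 := Nat.card_le_card_of_injective _ hinj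
  obtain ⟨χ⟩ := CommGroup.monoidHom_mulEquiv_of_hasEnoughRootsOfUnity (Abelianization N) ℂ
  rw [Nat.card_congr χ.toEquiv] at h1
  have h2 := (commutator N).card_mul_index
  rw [Subgroup.index_eq_card] at h2
  have h3 : 2 ≤ Nat.card (commutator N) := by
    haveI : Nontrivial (commutator N) := ⟨⟨⟨z, hzd⟩, 1, fun h => hz (congrArg Subtype.val h)⟩⟩
    exact Finite.one_lt_card
  calc Nat.card (N →* Z) * 2 ≤ Nat.card (N ⧸ commutator N) * Nat.card (commutator N) :=
        Nat.mul_le_mul h1 h3
    _ = Nat.card N := by rw [mul_comm]; exact h2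

/-- The class bound. -/
theorem class_bound [Group.IsSolvable H] [N.Normal] (hN : Nat.card N = 32)
    (hC : Nat.card (Subgroup.centralizer (N : Set H)) = 2) (hCN : Subgroup.centralizer (N : Set H) ≤ N)
    (hclass : ∀ x ∈ N, ∀ y ∈ N, ∀ w ∈ N, Commute (x * y * x⁻¹ * y⁻¹) w) {a : ℕ}
    (hH : Nat.card H ∣ 2 ^ a * 5) (h5 : 5 ∣ Nat.card H) :
    Nat.card H ∣ 640 ∧ Nat.card (ConjClasses H) ≤ 69 := by
  classical
  haveI : Fact (Nat.Prime 5) := ⟨by norm_num⟩
  set Zc := Subgroup.centralizer (N : Set H) with hZc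
  haveI : Zc.Normal := inferInstance
  set π := QuotientGroup.mk' Zc with hπ
  set W := N.map π with hW
  haveI : W.Normal := (inferInstance : N.Normal).map π (QuotientGroup.mk'_surjective Zc)
  have hWcard : Nat.card W = 16 := by
    have h := (π.domRestrict N).ker.card_mul_index
    rw [Subgroup.index_ker, MonoidHom.domRestrict_range, hN] at h
    have hk : Nat.card (π.domRestrict N).ker = 2 := by
      rw [← hC]
      refine Nat.card_congr ⟨fun x => ⟨x.1.1, (QuotientGroup.eq_one_iff _).1 x.2⟩,
        fun x => ⟨⟨x.1, hCN x.2⟩, (QuotientGroup.eq_one_iff _).2 x.2⟩, fun x => rfl, fun x => rfl⟩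
    rw [hk] at h
    rw [hW]
    omega
  let φ : H →* MulAut W := (MulAut.conjNormal (H := W)).comp π
  have hcommZ : ∀ x ∈ N, ∀ y ∈ N, x * y * x⁻¹ * y⁻¹ ∈ Zc := fun x hx y hy =>
    Subgroup.mem_centralizer_iff.2 fun w hw => ((hclass x hx y hy w hw).eq).symm
  have hsub : N ≤ φ.ker := fun x hx => by
    rw [MonoidHom.mem_ker]
    refine MulEquiv.ext fun w => Subtype.ext ?_
    obtain ⟨y, hy, hyw⟩ := w.2
    simp only [φ, MonoidHom.comp_apply, MulAut.conjNormal_apply, MulAut.one_apply, ← hyw]
    rw [← map_inv, ← map_mul, ← map_mul, hπ, QuotientGroup.mk'_apply, QuotientGroup.mk'_apply,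
      QuotientGroup.eq]
    have := (inferInstance : Zc.Normal).conj_mem _ (inv_mem (hcommZ x hx y hy)) y⁻¹
    convert this using 1
    group
  have hker : φ.ker = N := by
    refine le_antisymm ?_ hsub
    · -- the kernel injects into homomorphisms to the centre
      obtain ⟨c, hc, hc1⟩ : ∃ c ∈ commutator N, c ≠ (1 : N) := by
        refine (Subgroup.bot_or_exists_ne_one (commutator N)).resolve_left fun h => ?_
        have hNC : N ≤ Zc := fun x hx => Subgroup.mem_centralizer_iff.2 fun y hy => by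
          have hmem := Subgroup.commutator_mem_commutator (Subgroup.mem_top (⟨y, hy⟩ : N))
            (Subgroup.mem_top (⟨x, hx⟩ : N))
          rw [← _root_.commutator_def, h, Subgroup.mem_bot, commutatorElement_eq_one_iff_mul_comm] at hmem
          exact congrArg Subtype.val hmem
        have := Subgroup.card_le_of_le hNC
        omega
      have hcc : ∀ x : N, Commute c x := by
        intro x
        have hmem : c ∈ Subgroup.center N := by
          have hle : commutator N ≤ Subgroup.center N := by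
            rw [_root_.commutator_def, Subgroup.commutator_le]
            intro u _ v _
            rw [Subgroup.mem_center_iff]
            exact fun w => Subtype.ext ((hclass u u.2 v v.2 w w.2).eq).symm
          exact hle hc
        exact (Subgroup.mem_center_iff.1 hmem x).symm
      letI : CommGroup Zc :=
        { (inferInstance : Group Zc) with
          mul_comm := fun u v => Subtype.ext (Subgroup.mem_centralizer_iff.1 v.2 u (hCN u.2)) }
      have hzc : ∀ u ∈ φ.ker, ∀ x ∈ N, u * x * u⁻¹ * x⁻¹ ∈ Zc := by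
        intro u hu x hx
        have h1 := congrArg (fun σ : MulAut W => ((σ ⟨π x, x, hx, rfl⟩ : W) : H ⧸ Zc)) (MonoidHom.mem_ker.1 hu)
        simp only [φ, MonoidHom.comp_apply, MulAut.conjNormal_apply, MulAut.one_apply] at h1
        rw [← QuotientGroup.eq_one_iff]
        change π (u * x * u⁻¹ * x⁻¹) = 1
        rw [map_mul, map_mul, map_mul, map_inv, map_inv, h1, mul_inv_cancel]
      let Ψ : φ.ker → (N →* Zc) := fun u => MonoidHom.mk'
        (fun x => ⟨(u : H) * x * (u : H)⁻¹ * (x : H)⁻¹, hzc u u.2 x x.2⟩) fun x y => Subtype.ext (by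
          have hz : (u : H) * y * (u : H)⁻¹ * (y : H)⁻¹ ∈ Zc := hzc u u.2 y y.2
          have hc' := Subgroup.mem_centralizer_iff.1 hz x x.2
          simp only [Subgroup.coe_mul]
          calc (u : H) * ((x : H) * y) * (u : H)⁻¹ * ((x : H) * y)⁻¹
              = (u : H) * x * (u : H)⁻¹ * ((u : H) * y * (u : H)⁻¹ * (y : H)⁻¹ * (x : H)⁻¹) := by group
            _ = (u : H) * x * (u : H)⁻¹ * ((x : H)⁻¹ * ((x : H) * ((u : H) * y * (u : H)⁻¹ * (y : H)⁻¹)) * (x : H)⁻¹) := by group
            _ = (u : H) * x * (u : H)⁻¹ * ((x : H)⁻¹ * ((u : H) * y * (u : H)⁻¹ * (y : H)⁻¹ * (x : H)) * (x : H)⁻¹) := by rw [hc']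
            _ = (u : H) * x * (u : H)⁻¹ * (x : H)⁻¹ * ((u : H) * y * (u : H)⁻¹ * (y : H)⁻¹) := by group)
      have hfib : ∀ u v : φ.ker, Ψ u = Ψ v → (v : H)⁻¹ * u ∈ Zc := by
        intro u v h
        refine Subgroup.mem_centralizer_iff.2 fun x hx => ?_
        have h1 := congrArg Subtype.val (DFunLike.congr_fun h (⟨x, hx⟩ : N))
        change (u : H) * x * (u : H)⁻¹ * x⁻¹ = (v : H) * x * (v : H)⁻¹ * x⁻¹ at h1
        have h2 := mul_right_cancel h1
        calc x * ((v : H)⁻¹ * u) = (v : H)⁻¹ * ((v : H) * x * (v : H)⁻¹) * u := by group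
          _ = (v : H)⁻¹ * ((u : H) * x * (u : H)⁻¹) * u := by rw [h2]
          _ = (v : H)⁻¹ * u * x := by group
      -- count
      have hle : Nat.card φ.ker ≤ Nat.card (N →* Zc) * 2 := by
        haveI : Fintype φ.ker := Fintype.ofFinite _
        haveI : Finite (N →* Zc) := Finite.of_injective _ DFunLike.coe_injective
        haveI : Fintype (N →* Zc) := Fintype.ofFinite _
        rw [Nat.card_eq_fintype_card, ← Finset.card_univ, mul_comm]
        refine (Finset.card_le_mul_card_image (f := Ψ) Finset.univ 2 fun b hb => ?_).trans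
          (Nat.mul_le_mul_left 2 ((Finset.card_le_univ _).trans (le_of_eq Nat.card_eq_fintype_card.symm)))
        obtain ⟨v, -, hv⟩ := Finset.mem_image.1 hb
        rw [← hC, ← Nat.card_eq_finsetCard]
        refine Nat.card_le_card_of_injective (fun u => (⟨((v : φ.ker) : H)⁻¹ * ((u.1 : φ.ker) : H),
          hfib u.1 v ((Finset.mem_filter.1 u.2).2.trans hv.symm)⟩ : Zc)) fun u w h => ?_
        exact Subtype.ext (Subtype.ext (mul_left_cancel (congrArg Subtype.val h)))
      have h16 := card_hom_le (N := N) (Z := Zc) hC c hc1 hcc hc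
      rw [hN] at h16
      intro u hu
      exact (Subgroup.eq_of_le_of_card_ge hsub (by omega)).ge hu
  set ψ := φ.rangeRestrict with hψ
  have hψker : ψ.ker = N := by rw [hψ, MonoidHom.ker_rangeRestrict, hker]
  have hcard : Nat.card H = 32 * Nat.card φ.range := by
    rw [← ψ.ker.card_mul_index, Subgroup.index_ker,
      MonoidHom.range_eq_top.2 φ.rangeRestrict_surjective, Subgroup.card_top, hψker, hN]
  haveI : Group.IsSolvable φ.range := Group.isSolvable_of_surjective φ.rangeRestrict_surjective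
  have hM5 : 5 ∣ Nat.card φ.range := (Nat.Coprime.dvd_of_dvd_mul_left (by norm_num) (hcard ▸ h5))
  obtain ⟨A, hA, hA5, hAC⟩ := quotient_structure hWcard φ.range.subtype φ.range.subtype_injective (a := a)
    ((dvd_mul_left _ 32).trans (hcard ▸ hH)) hM5
  haveI := hA
  obtain ⟨h20, -, hk5⟩ := quotient_classes hA5 hAC
  refine ⟨hcard ▸ Nat.mul_dvd_mul_left 32 h20, ?_⟩
  -- the centralizer of an element
  have hCcard : ∀ u : H, u ∉ Zc → ∀ J : Subgroup φ.range,
      (Subgroup.centralizer ({u} : Set H)).map ψ ≤ J →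
        Nat.card (Subgroup.centralizer ({u} : Set H)) ≤ 16 * Nat.card J := by
    intro u hu J hJ
    set C := Subgroup.centralizer ({u} : Set H)
    have h := (ψ.domRestrict C).ker.card_mul_index
    rw [Subgroup.index_ker, MonoidHom.domRestrict_range] at h
    have hCN' : C ⊓ N ≠ N := by
      intro he
      refine hu (Subgroup.mem_centralizer_iff.2 fun x hx => ?_)
      exact Subgroup.mem_centralizer_singleton_iff.1 (inf_eq_right.1 he hx)
    have h16 : Nat.card (ψ.domRestrict C).ker ≤ 16 := by
      have hdvd : Nat.card (C ⊓ N : Subgroup H) ∣ 2 ^ 5 := by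
        rw [show (2:ℕ) ^ 5 = 32 by norm_num, ← hN]; exact Subgroup.card_dvd_of_le inf_le_right
      have hne : Nat.card (C ⊓ N : Subgroup H) ≠ 32 := fun he => hCN'
        (Subgroup.eq_of_le_of_card_ge inf_le_right (by rw [he, hN]))
      have heq : Nat.card (ψ.domRestrict C).ker = Nat.card (C ⊓ N : Subgroup H) :=
        Nat.card_congr ⟨fun x => ⟨x.1.1, Subgroup.mem_inf.2 ⟨x.1.2, hψker ▸ MonoidHom.mem_ker.2 x.2⟩⟩,
          fun x => ⟨⟨x.1, (Subgroup.mem_inf.1 x.2).1⟩,
            MonoidHom.mem_ker.1 (hψker.symm ▸ (Subgroup.mem_inf.1 x.2).2 : x.1 ∈ ψ.ker)⟩,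
          fun x => rfl, fun x => rfl⟩
      obtain ⟨i, hi, hi'⟩ := (Nat.dvd_prime_pow Nat.prime_two).1 hdvd
      rw [heq, hi']
      interval_cases i <;> simp_all
    calc Nat.card C = Nat.card (ψ.domRestrict C).ker * Nat.card (C.map ψ) := h.symm
      _ ≤ 16 * Nat.card J := Nat.mul_le_mul h16 (Subgroup.card_le_of_le hJ)
  have hinner : ∀ u ∈ (N : Set H) \ (Zc : Set H), 10 ≤ (Subgroup.centralizer ({u} : Set H)).index := by
    rintro u ⟨huN, huZ⟩
    set C := Subgroup.centralizer ({u} : Set H) with hCdef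
    set J := C.map ψ
    have h5J : ¬ 5 ∣ Nat.card J := by
      intro hd
      obtain ⟨g, hg⟩ := exists_prime_orderOf_dvd_card' 5 hd
      obtain ⟨x, hx, hxg⟩ := g.2
      let w : W := ⟨π u, u, huN, rfl⟩
      have hw1 : w ≠ 1 := fun h => huZ ((QuotientGroup.eq_one_iff u).1 (congrArg Subtype.val h))
      have hval : ((g : φ.range) : MulAut W) = φ x := by rw [← hxg]; rfl
      have hfix : ((g : φ.range) : MulAut W) w = w := by
        rw [hval]
        refine Subtype.ext ?_
        simp only [φ, MonoidHom.comp_apply, MulAut.conjNormal_apply, w]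
        rw [← map_mul, ← Subgroup.mem_centralizer_singleton_iff.1 hx |>.symm, map_mul, mul_inv_cancel_right]
      have h1 := fixed_five hWcard ((g : φ.range) : MulAut W)
        (by rw [← SubmonoidClass.coe_pow, ← SubmonoidClass.coe_pow, ← hg, pow_orderOf_eq_one]; rfl) hfix hw1
      have : g = 1 := Subtype.ext (Subtype.ext h1)
      rw [this, orderOf_one] at hg
      omega
    have hJ : Nat.card J * 5 ∣ Nat.card φ.range :=
      Nat.Coprime.mul_dvd_of_dvd_of_dvd (((by norm_num : Nat.Prime 5).coprime_iff_not_dvd.2 h5J).symm)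
        J.card_subgroup_dvd_card hM5
    have hle := Nat.le_of_dvd Nat.card_pos hJ
    have h1 := hCcard u huZ J le_rfl
    have h2 : C.index * Nat.card C = 32 * Nat.card φ.range := C.index_mul_card.trans hcard
    by_contra hlt
    push Not at hlt
    have hlt9 : C.index ≤ 9 := by omega
    have h3 : C.index * Nat.card C ≤ 9 * (16 * Nat.card J) := Nat.mul_le_mul hlt9 h1
    have : 0 < Nat.card J := Nat.card_pos
    omega
  have houter : ∀ c : ConjClasses φ.range, c ≠ ConjClasses.mk 1 →
      (ConjClasses.mk '' {u : H | ConjClasses.mk (ψ u) = c}).ncard ≤ 16 := by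
    intro c hc
    obtain ⟨m, rfl⟩ := ConjClasses.mk_surjective c
    set S := {u : H | ConjClasses.mk (ψ u) = ConjClasses.mk m}
    set e := (Subgroup.centralizer ({m} : Set φ.range)).index with he
    have hinv : ∀ u ∈ S, ∀ g : H, g * u * g⁻¹ ∈ S := fun u hu g => by
      change ConjClasses.mk (ψ (g * u * g⁻¹)) = _
      rw [← hu, ConjClasses.mk_eq_mk_iff_isConj]
      exact MonoidHom.map_isConj ψ (isConj_iff.2 ⟨g⁻¹, by group⟩)
    have hsize : ∀ u ∈ S, 2 * e ≤ (Subgroup.centralizer ({u} : Set H)).index := by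
      intro u hu
      have huZ : u ∉ Zc := fun h => hc (by
        have h1 : ψ u = 1 := MonoidHom.mem_ker.1 (hψker.symm ▸ hCN h : u ∈ ψ.ker)
        rw [← hu, h1])
      set J := Subgroup.centralizer ({ψ u} : Set φ.range)
      have hJe : J.index = e := by
        have h1 : ∀ t : φ.range, (Subgroup.centralizer ({t} : Set φ.range)).index =
            Nat.card (MulAction.orbit (ConjAct φ.range) t) := fun t => by
          rw [Nat.card_congr (MulAction.orbitEquivQuotientStabilizer (ConjAct φ.range) t), ← Subgroup.index_eq_card,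
            ConjAct.stabilizer_eq_centralizer]
          rfl
        rw [he, h1, h1, MulAction.orbit_eq_iff.2 (ConjAct.mem_orbit_conjAct.2 (ConjClasses.mk_eq_mk_iff_isConj.1 hu))]
      have hle : (Subgroup.centralizer ({u} : Set H)).map ψ ≤ J := by
        rintro _ ⟨x, hx, rfl⟩
        rw [Subgroup.mem_centralizer_singleton_iff, ← map_mul, ← map_mul,
          Subgroup.mem_centralizer_singleton_iff.1 hx]
      have h1 := hCcard u huZ J hle
      set C := Subgroup.centralizer ({u} : Set H)
      have h2 : C.index * Nat.card C = 32 * Nat.card φ.range := C.index_mul_card.trans hcard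
      rw [← J.index_mul_card, hJe] at h2
      by_contra hlt
      push Not at hlt
      have h3 : C.index * Nat.card C < 2 * e * (16 * Nat.card J) :=
        lt_of_lt_of_le ((Nat.mul_lt_mul_right Nat.card_pos).2 hlt) (Nat.mul_le_mul_left _ h1)
      rw [h2] at h3
      exact absurd h3 (not_lt.2 (le_of_eq (by ring)))
    have h1 := classes_mul_le S (2 * e) hinv hsize
    have hS : S.ncard ≤ 32 * e := by
      have hsub : S ⊆ ψ ⁻¹' (MulAction.orbit (ConjAct φ.range) m) := fun u hu =>
        ConjAct.mem_orbit_conjAct.2 (ConjClasses.mk_eq_mk_iff_isConj.1 hu)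
      refine (Set.ncard_le_ncard hsub (Set.toFinite _)).trans ?_
      have hO : (MulAction.orbit (ConjAct φ.range) m).ncard = e := by
        rw [he, ← Nat.card_coe_set_eq, Nat.card_congr (MulAction.orbitEquivQuotientStabilizer (ConjAct φ.range) m),
          ← Subgroup.index_eq_card, ConjAct.stabilizer_eq_centralizer]
        rfl
      haveI : Fintype H := Fintype.ofFinite H
      haveI : Fintype φ.range := Fintype.ofFinite _
      rw [← hO, Set.ncard_eq_toFinset_card', Set.ncard_eq_toFinset_card']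
      refine Finset.card_le_mul_card_image_of_maps_to (f := ψ) (by intro u hu; simpa using hu) 32 fun b _ => ?_
      obtain ⟨x, hx⟩ := φ.rangeRestrict_surjective b
      rw [← hN, ← Nat.card_eq_finsetCard]
      refine Nat.card_le_card_of_injective (fun u => (⟨x⁻¹ * u.1, ?_⟩ : N)) fun u v h => Subtype.ext
        (mul_left_cancel (congrArg Subtype.val h))
      have hu := (Finset.mem_filter.1 u.2).2
      rw [← hψker, MonoidHom.mem_ker, map_mul, map_inv, hu, show ψ x = b from hx, inv_mul_cancel]
    have he0 : 0 < e := Nat.pos_of_ne_zero Subgroup.index_ne_zero_of_finite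
    have h2 := h1.trans hS
    by_contra hgt
    push Not at hgt
    have : 2 * e * 17 ≤ 2 * e * (ConjClasses.mk '' S).ncard := Nat.mul_le_mul_left _ hgt
    omega
  -- inner classes
  have hin1 := classes_mul_le ((N : Set H) \ (Zc : Set H)) 10
    (fun u hu g => ⟨(inferInstance : N.Normal).conj_mem u hu.1 g, fun h => hu.2
      (by simpa [mul_assoc] using (inferInstance : Zc.Normal).conj_mem _ h g⁻¹)⟩) hinner
  have hn1 : ((N : Set H) \ (Zc : Set H)).ncard = 30 := by
    rw [Set.ncard_sdiff (fun x hx => hCN hx) (Set.toFinite _), ← Nat.card_coe_set_eq, ← Nat.card_coe_set_eq,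
      show Nat.card (N : Set H) = 32 from hN, show Nat.card (Zc : Set H) = 2 from hC]
  rw [hn1] at hin1
  -- combine
  haveI : Fintype (ConjClasses φ.range) := Fintype.ofFinite _
  let F : Finset (ConjClasses φ.range) := Finset.univ.erase (ConjClasses.mk 1)
  have hcover : (Set.univ : Set (ConjClasses H)) ⊆ (ConjClasses.mk '' (Zc : Set H) ∪
      ConjClasses.mk '' ((N : Set H) \ (Zc : Set H))) ∪
      ⋃ c ∈ F, ConjClasses.mk '' {u : H | ConjClasses.mk (ψ u) = c} := by
    intro d _
    obtain ⟨u, rfl⟩ := ConjClasses.mk_surjective d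
    by_cases huN : u ∈ N
    · by_cases huZ : u ∈ Zc
      · exact Or.inl (Or.inl ⟨u, huZ, rfl⟩)
      · exact Or.inl (Or.inr ⟨u, ⟨huN, huZ⟩, rfl⟩)
    · refine Or.inr (Set.mem_biUnion (x := ConjClasses.mk (ψ u)) ?_ ⟨u, rfl, rfl⟩)
      refine Finset.mem_erase.2 ⟨fun h => huN ?_, Finset.mem_univ _⟩
      rw [ConjClasses.mk_eq_mk_iff_isConj, isConj_one_left] at h
      rw [← hψker, MonoidHom.mem_ker]
      exact h
  have h3 := Set.ncard_le_ncard hcover (Set.toFinite _)
  rw [Set.ncard_univ] at h3
  have h4 := Set.ncard_union_le (ConjClasses.mk '' (Zc : Set H) ∪ ConjClasses.mk '' ((N : Set H) \ (Zc : Set H)))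
    (⋃ c ∈ F, ConjClasses.mk '' {u : H | ConjClasses.mk (ψ u) = c})
  have h5' := Set.ncard_union_le (ConjClasses.mk '' (Zc : Set H)) (ConjClasses.mk '' ((N : Set H) \ (Zc : Set H)))
  have h6 : (ConjClasses.mk '' (Zc : Set H)).ncard ≤ 2 := by
    refine (Set.ncard_image_le (Set.toFinite _)).trans (le_of_eq ?_)
    rw [← Nat.card_coe_set_eq]; exact hC
  have h7 : (⋃ c ∈ F, ConjClasses.mk '' {u : H | ConjClasses.mk (ψ u) = c}).ncard ≤ 64 := by
    refine (Finset.set_ncard_biUnion_le F _).trans ?_
    refine (Finset.sum_le_card_nsmul F _ 16 fun c hc => houter c (Finset.mem_erase.1 hc).1).trans ?_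
    rw [smul_eq_mul, Finset.card_erase_of_mem (Finset.mem_univ _), Finset.card_univ, ← Nat.card_eq_fintype_card]
    omega
  omega

end CfsgLib.CoprimeTransitive.ExtraspecialCount
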