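import Cfsg.Agent.Lib.CoprimeTransitive.KGVSetup
import Cfsg.Agent.Lib.CoprimeTransitive.ExtraspecialCount
import Cfsg.Agent.Lib.TransitiveLinear.Exceptional
import Cfsg.Agent.Lib.CharTheory.Burnside

/-!
# The exceptional transitive groups of order prime to three on a space of 81 vectors
-/

set_option autoImplicit false
set_option linter.unusedSectionVars false
set_option linter.style.haveILetI false

namespace CfsgLib.CoprimeTransitive

open CfsgLib.PermGroups.Regular CfsgLib.TransitiveLinear CfsgLib.OrderDegrees.Linear Module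

variable {H : Subgroup (Space 3 4 ≃ₗ[ZMod 3] Space 3 4)}

theorem no_thirteen (hp' : ¬ 3 ∣ Nat.card H)
    (htr : ∀ v w : Space 3 4, v ≠ 0 → w ≠ 0 → ∃ h : H, (h : Space 3 4 ≃ₗ[ZMod 3] Space 3 4) v = w) :
    ¬ 13 ∣ Nat.card H := by
  classical
  intro hd
  haveI := finite_group (H := H)
  haveI : Fact (Nat.Prime 13) := ⟨by norm_num⟩
  haveI : Fact (Nat.Prime 3) := ⟨Nat.prime_three⟩
  obtain ⟨u, hu⟩ := exists_prime_orderOf_dvd_card' 13 hd
  obtain ⟨ρ, hρ⟩ := exists_complex (n := 4) (by norm_num) hp'
  have hfr : finrank ℂ (Fin 4 → ℂ) = 4 := Module.finrank_fin_fun ℂ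
  have hpc : PComm 13 ρ := by
    by_contra hnc
    have := small (ρ := ρ) (by omega) hnc
    omega
  let fixs : H → Submodule (ZMod 3) (Space 3 4) := fun g =>
    LinearMap.eqLocus ((g : Space 3 4 ≃ₗ[ZMod 3] Space 3 4) : Space 3 4 →ₗ[ZMod 3] Space 3 4) LinearMap.id
  have hmem : ∀ g x, x ∈ fixs g ↔ (g : Space 3 4 ≃ₗ[ZMod 3] Space 3 4) x = x := fun g x => Iff.rfl
  have hline : ∀ g : H, orderOf g = 13 → Nat.card (fixs g) = 3 := by
    intro g hg
    have hP : PElt 13 g := pElt_of_orderOf (k := 1) (by rw [hg, pow_one])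
    have h := card_modEq_fixed (y := g) hP ⊤ (fun _ _ _ _ => Submodule.mem_top)
    rw [Nat.card_congr (Submodule.topEquiv (R := ZMod 3) (M := Space 3 4)).toEquiv, card_space,
      Nat.card_congr (β := fixs g) ⟨fun w => ⟨w.1.1, w.2⟩, fun w => ⟨⟨w.1, Submodule.mem_top⟩, w.2⟩,
        fun _ => rfl, fun _ => rfl⟩, Module.natCard_eq_pow_finrank (K := ZMod 3), Nat.card_zmod] at h
    rw [Module.natCard_eq_pow_finrank (K := ZMod 3), Nat.card_zmod]
    have hle : finrank (ZMod 3) (fixs g) ≤ 4 := by simpa using Submodule.finrank_le (fixs g)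
    rcases Nat.lt_or_ge (finrank (ZMod 3) (fixs g)) 4 with hlt | hge
    · unfold Nat.ModEq at h
      interval_cases finrank (ZMod 3) (fixs g) <;> simp_all
    · exfalso
      have htop : fixs g = ⊤ := Submodule.eq_top_of_finrank_eq (by simp; omega)
      have hg1 : g = 1 := Subtype.ext (LinearEquiv.ext fun x => (hmem g x).1 (htop ▸ Submodule.mem_top))
      rw [hg1, orderOf_one] at hg
      omega
  set L := fixs u with hL
  have hLcard : Nat.card L = 3 := hline u hu
  have hsame : ∀ g : H, orderOf g = 13 → fixs g = L := by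
    intro g hg
    have hc : g * u = u * g := hpc.commute hρ (pElt_of_orderOf (k := 1) (by rw [hg, pow_one]))
      (pElt_of_orderOf (k := 1) (by rw [hu, pow_one]))
    have hinv : ∀ x ∈ L, (g : Space 3 4 ≃ₗ[ZMod 3] Space 3 4) x ∈ L := by
      intro x hx
      rw [hL, hmem] at hx ⊢
      rw [← LinearEquiv.mul_apply, ← Subgroup.coe_mul, ← hc, Subgroup.coe_mul, LinearEquiv.mul_apply, hx]
    have hinvp : InvUnder (Subgroup.zpowers g) L := by
      intro a ha x hx
      obtain ⟨i, rfl⟩ := (Submonoid.mem_powers_iff _ _).1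
        (mem_powers_iff_mem_zpowers.2 ha : a ∈ Submonoid.powers g)
      clear ha
      induction i generalizing x with
      | zero => simpa using hx
      | succ i ih =>
        rw [pow_succ, Subgroup.coe_mul, LinearEquiv.mul_apply]
        exact ih _ (hinv x hx)
    have h := card_modEq_fixed (y := g) (pElt_of_orderOf (k := 1) (by rw [hg, pow_one])) L hinvp
    rw [hLcard] at h
    have hle : Nat.card {w : L // (g : Space 3 4 ≃ₗ[ZMod 3] Space 3 4) w.1 = w.1} ≤ 3 :=
      (Nat.card_le_card_of_injective (Subtype.val :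
        {w : L // (g : Space 3 4 ≃ₗ[ZMod 3] Space 3 4) w.1 = w.1} → L) Subtype.val_injective).trans hLcard.le
    have hall : ∀ x ∈ L, (g : Space 3 4 ≃ₗ[ZMod 3] Space 3 4) x = x := by
      have h3 : Nat.card {w : L // (g : Space 3 4 ≃ₗ[ZMod 3] Space 3 4) w.1 = w.1} = 3 := by
        unfold Nat.ModEq at h
        omega
      intro x hx
      have hbij := (Nat.bijective_iff_injective_and_card (f := (Subtype.val :
        {w : L // (g : Space 3 4 ≃ₗ[ZMod 3] Space 3 4) w.1 = w.1} → L))).2
          ⟨Subtype.val_injective, by rw [h3, hLcard]⟩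
      obtain ⟨w, hw⟩ := hbij.2 ⟨x, hx⟩
      have := w.2
      rwa [hw] at this
    have hle2 : L ≤ fixs g := fun x hx => (hmem g x).2 (hall x hx)
    refine (SetLike.coe_injective (Set.eq_of_subset_of_ncard_le hle2 ?_ (Set.toFinite _))).symm
    rw [← Nat.card_coe_set_eq, ← Nat.card_coe_set_eq]
    exact ((hline g hg).trans hLcard.symm).le
  obtain ⟨x, hx, hx0⟩ : ∃ x ∈ L, x ≠ 0 := by
    refine Submodule.exists_mem_ne_zero_of_ne_bot fun h => ?_
    rw [h] at hLcard
    simp at hLcard
  have htop : L = ⊤ := by
    refine Submodule.eq_top_iff'.2 fun w => ?_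
    by_cases hw : w = 0
    · rw [hw]; exact L.zero_mem
    obtain ⟨h, rfl⟩ := htr x w hx0 hw
    have hord : orderOf (h * u * h⁻¹) = 13 := by
      rw [← MulAut.conj_apply, MulEquiv.orderOf_eq, hu]
    rw [← hsame _ hord, hmem, Subgroup.coe_mul, Subgroup.coe_mul, LinearEquiv.mul_apply, LinearEquiv.mul_apply,
      Subgroup.coe_inv, LinearEquiv.coe_inv, LinearEquiv.symm_apply_apply]
    rw [(hmem u x).1 hx]
  rw [htop, Nat.card_congr (Submodule.topEquiv (R := ZMod 3) (M := Space 3 4)).toEquiv, card_space] at hLcard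
  norm_num at hLcard

/-- The data of the exceptional normal subgroup. -/
theorem exists_extraspecial (hp' : ¬ 3 ∣ Nat.card H)
    (htr : ∀ v w : Space 3 4, v ≠ 0 → w ≠ 0 → ∃ h : H, (h : Space 3 4 ≃ₗ[ZMod 3] Space 3 4) v = w)
    (hI : NoIrredCyclic H) (hsolv : Group.IsSolvable H) (h5 : 5 ∣ Nat.card H) :
    ∃ N : Subgroup H, N.Normal ∧ Nat.card N = 32 ∧ Nat.card (Subgroup.centralizer (N : Set H)) = 2 ∧
      Subgroup.centralizer (N : Set H) ≤ N ∧
      ∀ x ∈ N, ∀ y ∈ N, ∀ w ∈ N, Commute (x * y * x⁻¹ * y⁻¹) w := by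
  classical
  haveI := finite_group (H := H)
  haveI : Fact (Nat.Prime 3) := ⟨Nat.prime_three⟩
  haveI : Fact (Nat.Prime 5) := ⟨by norm_num⟩
  obtain ⟨N, hN, hna, hirr, ⟨r, hr, hrp, hrN⟩, hclass⟩ := exists_class_two_normal htr hI hsolv
  haveI := hN
  haveI : Finite (Module.End (ZMod 3) (Space 3 4)) :=
    Finite.of_injective (fun g : Module.End (ZMod 3) (Space 3 4) => (g : Space 3 4 → Space 3 4))
      DFunLike.coe_injective
  have hS := isInj_commutant hirr
  have hcyc := (hS.isCyclic_and_card_dvd (K := Subgroup.centralizer (N : Set H))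
    fun a ha => commute_of_mem_commutant.2 ha)
  have hcard : Nat.card (commutant N) = 3 ^ Module.finrank (ZMod 3) (commutant N) := natCard_eq_pow _
  letI : Field (commutant N) := hS.isField.toField
  let emb : commutant N →+* Module.End (ZMod 3) (Space 3 4) :=
    { toFun := Subtype.val
      map_one' := rfl
      map_mul' := fun _ _ => rfl
      map_zero' := rfl
      map_add' := fun _ _ => rfl }
  letI iM : Module (commutant N) (Space 3 4) := Module.compHom (Space 3 4) emb
  haveI : Module.Finite (commutant N) (Space 3 4) := Module.Finite.of_finite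
  haveI : CharP (commutant N) 3 := by
    refine charP_of_injective_algebraMap (R := ZMod 3) (A := commutant N) ?_ 3
    exact (algebraMap (ZMod 3) (commutant N)).injective
  set n := Module.finrank (commutant N) (Space 3 4) with hn
  set f := Module.finrank (ZMod 3) (commutant N) with hf
  have hfn : f * n = 4 := by
    have h := Module.natCard_eq_pow_finrank (K := commutant N) (V := Space 3 4)
    rw [card_space, hcard, ← pow_mul] at h
    exact (Nat.pow_right_injective (by norm_num) h).symm
  let lin : N →* Module.End (commutant N) (Space 3 4) :=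
    { toFun := fun g =>
        { toFun := endHom H g
          map_add' := map_add _
          map_smul' := fun k v => by
            have h := (Subalgebra.mem_centralizer_iff (R := ZMod 3)).1 k.2 _ ⟨(g : H), g.2, rfl⟩
            exact LinearMap.congr_fun h v }
      map_one' := LinearMap.ext fun v => rfl
      map_mul' := fun a c => LinearMap.ext fun v => rfl }
  have hlin : Function.Injective lin := fun a b h => Subtype.ext (endHom_injective H
    (LinearMap.ext fun v => LinearMap.congr_fun h v))
  let b := Module.finBasis (commutant N) (Space 3 4)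
  let T := (LinearMap.toMatrixAlgEquiv b).toMulEquiv.toMonoidHom
  let R : ClassTwoRep (commutant N) (Fin n) N :=
    { rho := T.comp lin
      class_two := fun x y => Subgroup.mem_center_iff.2 fun z =>
        Subtype.ext (hclass x x.2 y y.2 z z.2)
      inj := (LinearMap.toMatrixAlgEquiv b).injective.comp hlin
      scalar := fun z hz => by
        have hzc : endHom H (z : H) ∈ commutant N := commute_of_mem_commutant.2
          (Subgroup.mem_centralizer_iff.2 fun x hx =>
            congrArg Subtype.val (Subgroup.mem_center_iff.1 hz ⟨x, hx⟩))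
        refine ⟨⟨_, hzc⟩, ?_⟩
        change LinearMap.toMatrixAlgEquiv b (lin z) = _
        rw [show lin z = (⟨_, hzc⟩ : commutant N) • 1 from LinearMap.ext fun v => rfl, map_smul, map_one]
      schur := fun X hX => by
        set Y := (LinearMap.toMatrixAlgEquiv b).symm X
        have hY : ∀ x, lin x * Y = Y * lin x := fun x => by
          apply (LinearMap.toMatrixAlgEquiv b).injective
          rw [map_mul, map_mul, AlgEquiv.apply_symm_apply]
          exact hX x
        let Y' : Module.End (ZMod 3) (Space 3 4) :=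
          { toFun := Y, map_add' := map_add Y, map_smul' := fun c v => ZMod.map_smul Y c v }
        have hYc : Y' ∈ commutant N := by
          refine (Subalgebra.mem_centralizer_iff (R := ZMod 3)).2 ?_
          rintro _ ⟨x, hx, rfl⟩
          exact LinearMap.ext fun v => LinearMap.congr_fun (hY ⟨x, hx⟩) v
        refine ⟨⟨_, hYc⟩, ?_⟩
        have hYe : Y = (⟨_, hYc⟩ : commutant N) • 1 := LinearMap.ext fun v => rfl
        rw [← AlgEquiv.apply_symm_apply (LinearMap.toMatrixAlgEquiv b) X]
        change LinearMap.toMatrixAlgEquiv b Y = _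
        rw [hYe, map_smul, map_one]
      index_ne := by
        haveI : Fact r.Prime := ⟨hr⟩
        obtain ⟨j, hj⟩ := IsPGroup.iff_card.1 (hrN.to_quotient (Subgroup.center N))
        rw [Subgroup.index, hj, Nat.cast_pow]
        refine pow_ne_zero _ fun h => hrp ?_
        rw [CharP.cast_eq_zero_iff (commutant N) 3] at h
        exact ((Nat.prime_dvd_prime_iff_eq Nat.prime_three hr).1 h).symm }
  haveI : Fintype (N ⧸ Subgroup.center N) := Fintype.ofFinite _
  haveI : Nonempty (Fin n) := ⟨⟨0, Nat.pos_of_ne_zero fun h => by rw [h, mul_zero] at hfn; omega⟩⟩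
  have hsq : n ^ 2 = (Subgroup.center N).index := by
    have := R.sq_card_eq_index (s := Quotient.out) QuotientGroup.out_eq'
    rwa [Fintype.card_fin] at this
  have hCdvd : Nat.card (Subgroup.centralizer (N : Set H)) ∣ 3 ^ f - 1 := hcard ▸ hcyc.2
  -- the centre
  have hZC : (Subgroup.center N).map N.subtype ≤ Subgroup.centralizer (N : Set H) := by
    rintro _ ⟨z, hz, rfl⟩
    exact Subgroup.mem_centralizer_iff.2 fun x hx =>
      congrArg Subtype.val (Subgroup.mem_center_iff.1 hz ⟨x, hx⟩)
  have hn1 : n ≠ 1 := fun h => by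
    rw [h, one_pow] at hsq
    refine hna (IsMulCommutative.of_comm fun x y => ?_)
    exact (Subgroup.mem_center_iff.1 (Subgroup.index_eq_one.1 hsq.symm ▸ Subgroup.mem_top y) x)
  have hn2 : n = 4 ∧ f = 1 := by
    have hnle : n ∣ 4 := ⟨f, by rw [← hfn, mul_comm]⟩
    have hn4 : n = 2 ∨ n = 4 := by
      have key : ∀ m : ℕ, m ∣ 4 → m ≠ 1 → m = 2 ∨ m = 4 := fun m h1 h2 => by
        have := Nat.le_of_dvd (by norm_num) h1
        interval_cases m <;> simp_all
      exact key n hnle hn1
    rcases hn4 with h | h
    · exfalso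
      have hf2 : f = 2 := by rw [h] at hfn; omega
      rw [hf2] at hCdvd
      obtain ⟨y, hy⟩ := exists_prime_orderOf_dvd_card' 5 h5
      set σ : MulAut N := MulAut.conjNormal (H := N) y with hσ
      have hσ5 : σ ^ 5 = 1 := by rw [hσ, ← map_pow, ← hy, pow_orderOf_eq_one, map_one]
      have hσZ : ∀ z ∈ Subgroup.center N, σ z = z := by
        intro z hz
        haveI : IsCyclic (Subgroup.centralizer (N : Set H)) := hcyc.1
        set C := Subgroup.centralizer (N : Set H)
        set τ : MulAut C := MulAut.conjNormal (H := C) y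
        have hτ : τ = 1 := by
          rw [← orderOf_eq_one_iff]
          have h1 : orderOf τ ∣ 5 := orderOf_dvd_of_pow_eq_one (by
            rw [← map_pow, ← hy, pow_orderOf_eq_one, map_one])
          have h2 : orderOf τ ∣ Nat.card (MulAut C) := orderOf_dvd_natCard τ
          rw [IsCyclic.card_mulAut] at h2
          have h3 : orderOf τ ∣ Nat.totient 8 := h2.trans (Nat.totient_dvd_of_dvd hCdvd)
          rw [show Nat.totient 8 = 4 by decide] at h3
          exact Nat.eq_one_of_dvd_coprimes (by norm_num) h1 h3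
        have := congrArg (fun t : MulAut C => ((t ⟨z, hZC ⟨z, hz, rfl⟩⟩ : C) : H)) hτ
        simp only [τ, MulAut.conjNormal_apply, MulAut.one_apply] at this
        exact Subtype.ext (by rw [hσ, MulAut.conjNormal_apply]; exact this)
      let τ : MulAut (N ⧸ Subgroup.center N) :=
        QuotientGroup.congr _ _ σ (Subgroup.characteristic_iff_map_eq.1 inferInstance σ)
      have hdiff : ∀ x : N, x⁻¹ * σ x ∈ Subgroup.center N := by
        intro x
        rw [← QuotientGroup.eq]
        by_contra hne
        let P : Equiv.Perm (N ⧸ Subgroup.center N) := τ.toEquiv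
        have hP5 : P ^ 5 = 1 := by
          refine Equiv.ext fun q => ?_
          obtain ⟨w, rfl⟩ := QuotientGroup.mk_surjective q
          have hiter : ∀ (i : ℕ) (w : N), (P ^ i) (w : N ⧸ Subgroup.center N) = ((σ ^ i) w : N) := by
            intro i
            induction i with
            | zero => intro w; simp
            | succ i ih =>
              intro w
              rw [pow_succ, Equiv.Perm.mul_apply, pow_succ, MulAut.mul_apply, ← ih]
              rfl
          rw [hiter, hσ5]
          rfl
        have hP : P = 1 := by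
          rw [← orderOf_eq_one_iff]
          have h1 : orderOf P ∣ 5 := orderOf_dvd_of_pow_eq_one hP5
          have h2 : orderOf P ∣ 24 := by
            refine (orderOf_dvd_natCard P).trans (dvd_of_eq ?_)
            rw [Nat.card_perm, ← Subgroup.index_eq_card, ← hsq, h]
            rfl
          exact Nat.eq_one_of_dvd_coprimes (by norm_num) h1 h2
        exact hne (by
          have := Equiv.ext_iff.1 hP (x : N ⧸ Subgroup.center N)
          exact this.symm)
      have hfix : ∀ x : N, σ x = x := by
        intro x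
        set z := x⁻¹ * σ x with hz
        have hzc := hdiff x
        have hx : σ x = x * z := by rw [hz]; group
        have hiter : ∀ i : ℕ, (σ ^ i) x = x * z ^ i := by
          intro i
          induction i with
          | zero => simp
          | succ i ih =>
            rw [pow_succ', MulAut.mul_apply, ih, map_mul, map_pow, hx, hσZ z hzc, pow_succ' z i, mul_assoc]
        have hz5 : z ^ 5 = 1 := by
          have := hiter 5
          rw [hσ5] at this
          simpa using this
        have hz8 : z ^ 8 = 1 := by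
          have hdvd : orderOf (⟨(z : H), hZC ⟨z, hzc, rfl⟩⟩ : Subgroup.centralizer (N : Set H)) ∣ 8 :=
            (orderOf_dvd_natCard _).trans hCdvd
          rw [Subgroup.orderOf_mk, Subgroup.orderOf_coe] at hdvd
          exact orderOf_dvd_iff_pow_eq_one.1 hdvd
        have hz1 : z = 1 := orderOf_eq_one_iff.1 (Nat.eq_one_of_dvd_coprimes (by norm_num : Nat.Coprime 5 8)
          (orderOf_dvd_of_pow_eq_one hz5) (orderOf_dvd_of_pow_eq_one hz8))
        rw [hx, hz1, mul_one]
      have hyC : y ∈ Subgroup.centralizer (N : Set H) := Subgroup.mem_centralizer_iff.2 fun x hx => by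
        have := congrArg Subtype.val (hfix ⟨x, hx⟩)
        rw [hσ, MulAut.conjNormal_apply] at this
        exact (mul_inv_eq_iff_eq_mul.1 this).symm
      have h58 : 5 ∣ 8 := by
        refine dvd_trans ?_ hCdvd
        rw [← hy, ← Subgroup.orderOf_mk y hyC]
        exact orderOf_dvd_natCard _
      norm_num at h58
    · exact ⟨h, by rw [h] at hfn; omega⟩
  obtain ⟨hn4, hf1⟩ := hn2
  rw [hf1] at hCdvd
  rw [hn4] at hsq
  haveI : Fact r.Prime := ⟨hr⟩
  haveI : Nontrivial N := by
    by_contra hc
    haveI := not_nontrivial_iff_subsingleton.1 hc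
    exact hna (IsMulCommutative.of_comm fun x y => Subsingleton.elim _ _)
  haveI := hrN.center_nontrivial
  have hZ2 : Nat.card (Subgroup.center N) = 2 := by
    have h1 : 1 < Nat.card (Subgroup.center N) := Finite.one_lt_card
    have h2 : Nat.card (Subgroup.center N) ≤ 2 := by
      rw [← Subgroup.card_subtype N (Subgroup.center N)]
      exact (Subgroup.card_le_of_le hZC).trans (Nat.le_of_dvd (by norm_num) hCdvd)
    omega
  have hC2 : Nat.card (Subgroup.centralizer (N : Set H)) = 2 :=
    le_antisymm (Nat.le_of_dvd (by norm_num) hCdvd)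
      (by rw [← hZ2, ← Subgroup.card_subtype N (Subgroup.center N)]; exact Subgroup.card_le_of_le hZC)
  refine ⟨N, hN, ?_, hC2, ?_, fun x hx y hy w hw => (hclass x hx y hy w hw).symm⟩
  · rw [← (Subgroup.center N).card_mul_index, hZ2, ← hsq]
    norm_num
  · have := Subgroup.eq_of_le_of_card_ge hZC (by rw [hC2, Subgroup.card_subtype, hZ2])
    rw [← this]
    exact Subgroup.map_subtype_le _

/-- The bound on 81 vectors. -/
theorem eighty_one_bound {H : Subgroup (Space 3 4 ≃ₗ[ZMod 3] Space 3 4)} (hp' : ¬ 3 ∣ Nat.card H)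
    (htr : ∀ v w : Space 3 4, v ≠ 0 → w ≠ 0 → ∃ h : H, (h : Space 3 4 ≃ₗ[ZMod 3] Space 3 4) v = w)
    (hI : ∀ A : Subgroup H, A.Normal → IsMulCommutative A → ¬ Irred A)
    {v : Space 3 4} (hv : v ≠ 0) : Bound H v := by
  classical
  haveI := finite_group (H := H)
  haveI : Fact (Nat.Prime 3) := ⟨Nat.prime_three⟩
  have hI' : NoIrredCyclic H := by
    intro A hA hc
    have hcomm : IsMulCommutative A := hc.isMulCommutative
    have := hI A hA hcomm
    simp only [Irred, not_forall, not_or] at this
    obtain ⟨W, hW, h1, h2⟩ := this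
    exact ⟨W, h1, h2, hW⟩
  have h80 : 80 ∣ Nat.card H := by
    have := pow_sub_one_dvd (by norm_num : 0 < 4) htr
    norm_num at this
    exact this
  have h5 : 5 ∣ Nat.card H := (by norm_num : 5 ∣ 80).trans h80
  have hdvd : Nat.card H ∣ 2 ^ 9 * 5 := by
    have hGL : Nat.card H ∣ 2 ^ 9 * 5 * (3 ^ 6 * 13) := by
      have h := H.card_subgroup_dvd_card
      rw [card_GL] at h
      norm_num [Fin.prod_univ_succ] at h
      exact h
    have hcop : (Nat.card H).Coprime (3 ^ 6 * 13) :=
      Nat.Coprime.mul_right (Nat.Coprime.pow_right _ ((Nat.prime_three.coprime_iff_not_dvd.2 hp').symm))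
        (((by norm_num : Nat.Prime 13).coprime_iff_not_dvd.2 (no_thirteen hp' htr)).symm)
    exact hcop.dvd_of_dvd_mul_right hGL
  have hsolv : Group.IsSolvable H :=
    CfsgLib.CharTheory.isSolvable_of_card_dvd_pow_mul_pow 2 5 9 1 Nat.prime_two (by norm_num) (by simpa using hdvd)
  haveI := hsolv
  obtain ⟨N, hN, h32, hC, hCN, hclass⟩ := exists_extraspecial hp' htr hI' hsolv h5
  haveI := hN
  obtain ⟨h640, hk⟩ := ExtraspecialCount.class_bound h32 hC hCN hclass hdvd h5
  -- the stabilizer
  have hstab : Nat.card (vecStab H v) * 80 = Nat.card H := by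
    let X := {w : Space 3 4 // w ≠ 0}
    let _ : MulAction H X :=
      { smul := fun h x => ⟨(h : Space 3 4 ≃ₗ[ZMod 3] Space 3 4) x.1, (LinearEquiv.map_ne_zero_iff _).2 x.2⟩
        one_smul := fun x => Subtype.ext rfl
        mul_smul := fun a b x => Subtype.ext rfl }
    haveI : MulAction.IsPretransitive H X := ⟨fun a b => by
      obtain ⟨h, hh⟩ := htr a.1 b.1 a.2 b.2
      exact ⟨h, Subtype.ext hh⟩⟩
    have hst : MulAction.stabilizer H (⟨v, hv⟩ : X) = vecStab H v := by
      ext h
      exact ⟨fun e => congrArg Subtype.val e, fun e => Subtype.ext e⟩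
    have h1 := MulAction.index_stabilizer_of_transitive H (⟨v, hv⟩ : X)
    haveI : Fintype (Space 3 4) := Fintype.ofFinite _
    have h2 : Nat.card X = 80 := by
      rw [Nat.card_eq_fintype_card, Fintype.card_subtype_compl, Fintype.card_subtype_eq, ← Nat.card_eq_fintype_card,
        card_space]
      norm_num
    rw [← (MulAction.stabilizer H (⟨v, hv⟩ : X)).card_mul_index, h1, h2, hst]
  have h8 : Nat.card (vecStab H v) ≤ 8 := by
    have := Nat.le_of_dvd (by norm_num) h640
    omega
  have hk2 : Nat.card (ConjClasses (vecStab H v)) ≤ Nat.card (vecStab H v) :=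
    Nat.card_le_card_of_surjective _ ConjClasses.mk_surjective
  refine ⟨by norm_num; omega, fun h => ?_⟩
  norm_num at h
  omega

end CfsgLib.CoprimeTransitive
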