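import Cfsg.Agent.Lib.CoprimeTransitive.Arith

/-!
# Exponents without a large primitive prime
-/

set_option autoImplicit false

namespace CfsgLib.CoprimeTransitive

open CfsgLib.Zsigmondy

/-- The only primitive prime allowed. -/
def onlyPpd (n : ℕ) : ℕ := if n = 3 then 7 else n + 1

/-- The pairs left. -/
def leftPairs : List (ℕ × ℕ) :=
  [(2, 3), (2, 4), (2, 6), (2, 10), (2, 12), (2, 18), (3, 4), (3, 6), (5, 6)]

/-- A test excluding a row. -/
def rowKilled (a n R : ℕ) : Bool :=
  maybePrime R && decide (2 ≤ R) && decide ((a ^ n - 1) % R = 0) &&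
    ((List.range n).all fun k => k == 0 || (a ^ k - 1) % R != 0) &&
    (R != onlyPpd n || decide ((a ^ n - 1) % (R ^ 2) = 0))

theorem rows_table : ∀ row ∈ smallRows, (row.1, row.2.1) ∈ leftPairs ∨ maybePrime row.1 = false ∨
    rowKilled row.1 row.2.1 row.2.2.2 = true := by
  decide +kernel

theorem prime_of_maybePrime {m : ℕ} (h2 : 2 ≤ m) (h : maybePrime m = true) : m.Prime := by
  rw [Nat.prime_def_lt]
  refine ⟨h2, fun d hd hdvd => ?_⟩
  rw [maybePrime, List.all_eq_true] at h
  have h' := h d (List.mem_range.2 hd)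
  simp only [Bool.or_eq_true, decide_eq_true_eq, bne_iff_ne, ne_eq] at h'
  rcases h' with h' | h'
  · rcases Nat.eq_zero_or_pos d with rfl | h0
    · rw [Nat.zero_dvd] at hdvd; omega
    · omega
  · exact absurd (Nat.mod_eq_zero_of_dvd hdvd) h'

/-- The pairs without another primitive prime or a square. -/
theorem left_pairs {p n : ℕ} (hp : p.Prime) (hn : 3 ≤ n)
    (hppd : ∀ r, IsPpd p n r → r = onlyPpd n ∧ ¬ r ^ 2 ∣ p ^ n - 1) : (p, n) ∈ leftPairs := by
  have hp1 := hp.one_lt
  by_cases hsmall : n ∈ smallExps ∧ (p - 1) ^ n.totient ≤ n * (2 * n + 1)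
  · obtain ⟨row, hrow, h1, h2⟩ := exists_row hp1 hsmall.1 hsmall.2
    rcases rows_table row hrow with h | h | h
    · rwa [h1, h2] at h
    · rw [h1, maybePrime_of_prime hp] at h; exact absurd h (by decide)
    · exfalso
      rw [h1, h2] at h
      simp only [rowKilled, Bool.and_eq_true, decide_eq_true_eq, List.all_eq_true, List.mem_range,
        Bool.or_eq_true, beq_iff_eq, bne_iff_ne, ne_eq] at h
      obtain ⟨⟨⟨⟨hR, hR2⟩, hdvd⟩, hprim⟩, hlast⟩ := h
      have hpp : IsPpd p n row.2.2.2 := ⟨prime_of_maybePrime hR2 hR, Nat.dvd_of_mod_eq_zero hdvd,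
        fun k hk0 hkn hk => by
          rcases hprim k hkn with h | h
          · omega
          · exact h (Nat.mod_eq_zero_of_dvd hk)⟩
      obtain ⟨he, hsq⟩ := hppd _ hpp
      rcases hlast with h | h
      · exact h he
      · exact hsq (Nat.dvd_of_mod_eq_zero h)
  · exfalso
    obtain ⟨M, hM, hMp, -, hMn⟩ := exists_large_primitive_part hp1 (by omega) hsmall
    obtain ⟨l, hl, hlM⟩ := Nat.exists_prime_and_dvd (show M ≠ 1 by omega)
    obtain ⟨c, rfl⟩ := hlM
    obtain ⟨he, hsq⟩ := hppd l (hMp l hl (dvd_mul_right l c))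
    have hc : c = 1 := by
      by_contra hne
      obtain ⟨l', hl', hlc⟩ := Nat.exists_prime_and_dvd hne
      obtain ⟨he', -⟩ := hppd l' (hMp l' hl' (hlc.mul_left l))
      refine hsq (dvd_trans ?_ hM)
      rw [sq]
      exact Nat.mul_dvd_mul_left l (by rwa [he, ← he'])
    rw [hc, mul_one, he, onlyPpd] at hMn
    split at hMn <;> omega

end CfsgLib.CoprimeTransitive
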