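import Cfsg.Agent.Lib.OrderDegrees.LinearFeit
import Cfsg.Agent.Lib.Cores.PCore

/-!
# Small degree: no `r`-core and abelian centralisers of `r`-elements force a Sylow of prime order
-/

set_option autoImplicit false
set_option linter.unusedSectionVars false
set_option linter.style.haveILetI false

namespace CfsgLib.CoprimeTransitive

open CfsgLib.OrderDegrees.Linear CfsgLib.CharTheory
open Module

theorem not_sq_dvd_of_abelian_centralizers (r : ℕ) [Fact r.Prime] : ∀ (G : Type) [Group G] [Finite G]
    (V : Type) [AddCommGroup V] [Module ℂ V] [FiniteDimensional ℂ V] (ρ : Representation ℂ G V),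
    Function.Injective ρ → finrank ℂ V + 1 ≤ r →
    (∀ y : G, PElt r y → y ≠ 1 → ∀ a b : G, a * y = y * a → b * y = y * b → a * b = b * a) →
    (∀ D : Subgroup G, D.Normal → IsPGroup r D → D = ⊥) → ¬ r ^ 2 ∣ Nat.card G := by
  intro G iG iF
  induction hN : Nat.card G using Nat.strong_induction_on generalizing G with
  | _ N ih =>
    subst hN
    intro V _ _ _ ρ hρ hd hC hO hsq
    classical
    haveI := Fintype.ofFinite G
    have hlow : ∀ M : Subgroup G, M ≠ ⊤ → r ^ 2 ∣ Nat.card M →
        ∃ D : Subgroup M, D.Normal ∧ IsPGroup r D ∧ D ≠ ⊥ := by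
      intro M hM hM2
      by_contra h
      push Not at h
      refine ih (Nat.card M) ?_ M rfl V (res ρ M) (fun _ _ e => Subtype.ext (hρ e)) hd
        (fun y hy hy1 a b ha hb => Subtype.ext (hC y (hy.map M.subtype)
          (fun e => hy1 (Subtype.ext e)) a b (congrArg Subtype.val ha :) (congrArg Subtype.val hb :))) h hM2
      exact lt_of_le_of_ne (Subgroup.card_le_card_group M) fun e =>
        hM ((Subgroup.card_eq_iff_eq_top M).1 e)
    obtain ⟨P⟩ : Nonempty (Sylow r G) := inferInstance
    haveI := Fintype.ofFinite (P : Subgroup G)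
    have hP2 : r ^ 2 ∣ Nat.card (P : Subgroup G) := by
      rw [P.card_eq_multiplicity]
      exact pow_dvd_pow r (((Fact.out : r.Prime).pow_dvd_iff_le_factorization Nat.card_pos.ne').1 hsq)
    have hsyl : ∀ (Q : Sylow r G) (z : G), z ∈ (Q : Subgroup G) → ∀ u ∈ (Q : Subgroup G), z * u = u * z :=
      fun Q z hz u hu => commute_of_pGroup (by omega) hρ Q.isPGroup' hz hu
    have hab : ∀ u ∈ (P : Subgroup G), ∀ w ∈ (P : Subgroup G), u * w = w * u := fun u hu w hw =>
      hsyl P u hu w hw
    have hPZ : (P : Subgroup G) ⊓ Subgroup.center G = ⊥ := by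
      refine hO _ ⟨fun z hz x => ?_⟩ (P.isPGroup'.to_le inf_le_left)
      rw [Subgroup.mem_center_iff.1 hz.2 x, mul_inv_cancel_right]
      exact hz
    have hone : ∀ g : G, g ∉ Subgroup.center G → ∀ a b : G,
        Subgroup.centralizer ({g} : Set G) ⊓ (P : Subgroup G).map (MulAut.conj a).toMonoidHom ≠ ⊥ →
        Subgroup.centralizer ({g} : Set G) ⊓ (P : Subgroup G).map (MulAut.conj b).toMonoidHom ≠ ⊥ →
        (P : Subgroup G).map (MulAut.conj a).toMonoidHom
          = (P : Subgroup G).map (MulAut.conj b).toMonoidHom := by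
      intro g hg a b ha hb
      obtain ⟨x, hx, hx1⟩ := (Subgroup.bot_or_exists_ne_one _).resolve_left ha
      obtain ⟨y, hy, hy1⟩ := (Subgroup.bot_or_exists_ne_one _).resolve_left hb
      set A : Sylow r G := a • P
      set B : Sylow r G := b • P
      show (A : Subgroup G) = (B : Subgroup G)
      have hxA : x ∈ (A : Subgroup G) := hx.2
      have hyB : y ∈ (B : Subgroup G) := hy.2
      set M := Subgroup.centralizer ({g} : Set G)
      have hle : ∀ (Q : Sylow r G) (z : G), z ∈ (Q : Subgroup G) → z ≠ 1 → z ∈ M → (Q : Subgroup G) ≤ M :=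
        fun Q z hz hz1 hzM u hu => Subgroup.mem_centralizer_singleton_iff.2
          (hC z (pElt_of_isPGroup Q.isPGroup' hz) hz1 u g (hsyl Q u hu z hz)
            (Subgroup.mem_centralizer_singleton_iff.1 hzM).symm)
      have hAM := hle A x hxA hx1 hx.1
      have hBM := hle B y hyB hy1 hy.1
      have hMtop : M ≠ ⊤ := fun h => hg (Subgroup.mem_center_iff.2 fun u =>
        Subgroup.mem_centralizer_singleton_iff.1 (show u ∈ M by rw [h]; exact Subgroup.mem_top u))
      have hA2 : r ^ 2 ∣ Nat.card (A : Subgroup G) := by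
        rw [A.card_eq_multiplicity, ← P.card_eq_multiplicity]; exact hP2
      obtain ⟨D, hD, hDp, hD1⟩ := hlow M hMtop (hA2.trans (Subgroup.card_dvd_of_le hAM))
      haveI := hD
      have hDin : ∀ (Q : Sylow r G) (hQ : (Q : Subgroup G) ≤ M), ∀ d ∈ D, ((d : M) : G) ∈ (Q : Subgroup G) := by
        intro Q hQ d hd'
        have h1 : D ≤ (Q.subtype hQ : Subgroup M) :=
          (CfsgLib.Cores.le_pCore hDp).trans (CfsgLib.Cores.pCore_le_sylow (Q.subtype hQ))
        have h2 := h1 hd'
        rwa [Sylow.coe_subtype, Subgroup.mem_subgroupOf] at h2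
      obtain ⟨d, hd', hd1⟩ := (Subgroup.bot_or_exists_ne_one _).resolve_left hD1
      have hd0 : ((d : M) : G) ≠ 1 := fun e => hd1 (Subtype.ext e)
      have hdp : PElt r ((d : M) : G) := (pElt_of_isPGroup hDp hd').map M.subtype
      have hnorm : (A : Subgroup G) ≤ Subgroup.normalizer ((B : Subgroup G) : Set G) := by
        intro u hu
        have hc : ∀ w ∈ (B : Subgroup G), u * w = w * u := fun w hw =>
          hC _ hdp hd0 u w (hsyl A u hu _ (hDin A hAM d hd')) (hsyl B w hw _ (hDin B hBM d hd'))
        rw [Subgroup.mem_normalizer_iff]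
        intro w
        constructor
        · intro hw
          rwa [hc w hw, mul_inv_cancel_right]
        · intro hw
          have h2 : u * (u * w * u⁻¹) = u * w := (hc _ hw).trans (by group)
          rwa [mul_left_cancel h2] at hw
      have hsup := IsPGroup.to_sup_of_normal_left' B.isPGroup' A.isPGroup' hnorm
      have h1 := B.is_maximal' hsup le_sup_left
      have hAB : (A : Subgroup G) ≤ B := h1 ▸ le_sup_right
      refine Subgroup.eq_of_le_of_card_ge hAB ?_
      rw [A.card_eq_multiplicity, B.card_eq_multiplicity]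
    have hgen : ∀ M : Subgroup G, M.Normal → (P : Subgroup G) ≤ M → M = ⊤ := by
      intro M hMn hPM
      haveI := hMn
      by_contra hM
      obtain ⟨D, hD, hDp, hD1⟩ := hlow M hM (hP2.trans (Subgroup.card_dvd_of_le hPM))
      haveI := hD
      have hle : D ≤ Cfsg.pCore r M := CfsgLib.Cores.le_pCore hDp
      refine hD1 (le_bot_iff.1 (hle.trans (le_of_eq ?_)))
      have := hO ((Cfsg.pCore r M).map M.subtype) inferInstance ((CfsgLib.Cores.isPGroup_pCore r M).map _)
      exact (Subgroup.map_eq_bot_iff_of_injective _ M.subtype_injective).1 this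
    have hnc : ¬ PComm r ρ := by
      intro h
      haveI := sylow_normal_of_commute (fun x y hx hy => h.commute hρ hx hy) P
      have hbot := hO _ (inferInstanceAs (P : Subgroup G).Normal) P.isPGroup'
      rw [hbot, Subgroup.card_bot] at hP2
      have := Nat.le_of_dvd one_pos hP2
      have := Nat.one_lt_pow two_ne_zero (Fact.out : r.Prime).one_lt
      omega
    obtain ⟨s, t, -, hirr, hns⟩ := exists_big hnc
    haveI := hirr
    have hsd := Submodule.finrank_le s.toSubmodule
    have hs2 : 2 ≤ finrank ℂ s.toSubmodule := by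
      by_contra h
      exact hns (pComm_of_finrank_le_one (by omega))
    have hlt := CfsgLib.RealChar.one_add_degree_sq_gt (P : Subgroup G) hab hPZ hone
      (isIrrCharacter_character s.toRepresentation)
      (by rw [s.toRepresentation.char_one]; intro h; rw [Nat.cast_eq_one] at h; omega) hgen
    rw [s.toRepresentation.char_one, Complex.natCast_re] at hlt
    have hlt' : Nat.card (P : Subgroup G) < (1 + finrank ℂ s.toSubmodule) ^ 2 := by exact_mod_cast hlt
    have h2 := Nat.le_of_dvd Nat.card_pos hP2
    have h3 : (1 + finrank ℂ s.toSubmodule) ^ 2 ≤ r ^ 2 := Nat.pow_le_pow_left (by omega) 2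
    omega

end CfsgLib.CoprimeTransitive
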