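import Cfsg.Agent.Lib.Replacement.LinearTI

/-!
`p'`-subgroups of `GL(V)`, `V` a plane over a field of characteristic `p`, satisfy the centraliser hypotheses.
-/

set_option autoImplicit false
set_option linter.style.haveILetI false

namespace CfsgLib.CoprimeTransitive.PlaneField

open CfsgLib.Replacement.LinearTI

variable {p : ℕ} [Fact p.Prime] {K : Type*} [Field K] [CharP K p] {V : Type*} [AddCommGroup V] [Module K V]


theorem exists_not_eigen {f : Module.End K V} (hf : ∀ c : K, f ≠ c • 1) :
    ∃ v : V, LinearIndependent K ![v, f v] := by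
  by_contra hc
  push Not at hc
  have heig : ∀ v : V, ∃ c : K, f v = c • v := by
    intro v
    by_cases hv : v = 0
    · exact ⟨0, by simp [hv]⟩
    have h := hc v
    rw [LinearIndependent.pair_iff' hv] at h
    push Not at h
    obtain ⟨a, ha⟩ := h
    exact ⟨a, ha.symm⟩
  choose c hcv using heig
  by_cases hV : ∀ v : V, v = 0
  · exact hf 0 (LinearMap.ext fun v => by rw [hV (f v), hV ((0 • (1 : Module.End K V)) v)])
  push Not at hV
  obtain ⟨v₀, hv₀⟩ := hV
  refine hf (c v₀) (LinearMap.ext fun v => ?_)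
  rw [LinearMap.smul_apply, Module.End.one_apply]
  by_cases hdep : ∃ a : K, a • v₀ = v
  · obtain ⟨a, rfl⟩ := hdep
    rw [map_smul, hcv, smul_comm]
  · push Not at hdep
    have hli : LinearIndependent K ![v₀, v] := (LinearIndependent.pair_iff' hv₀).2 hdep
    have h1 : (c (v₀ + v) - c v₀) • v₀ + (c (v₀ + v) - c v) • v = 0 := by
      have h2 := hcv (v₀ + v)
      rw [map_add, hcv v₀, hcv v, smul_add] at h2
      rw [sub_smul, sub_smul, show c (v₀ + v) • v₀ - c v₀ • v₀ + (c (v₀ + v) • v - c v • v)
        = (c (v₀ + v) • v₀ + c (v₀ + v) • v) - (c v₀ • v₀ + c v • v) by abel, ← h2, sub_self]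
    obtain ⟨h3, h4⟩ := LinearIndependent.pair_iff.1 hli _ _ h1
    rw [hcv, ← sub_eq_zero.1 h3, sub_eq_zero.1 h4]

variable (hd : Module.finrank K V = 2)
include hd

/-- The basis given by a cyclic vector. -/
theorem exists_cyclic_basis {f : Module.End K V} (hf : ∀ c : K, f ≠ c • 1) :
    ∃ b : Module.Basis (Fin 2) K V, b 1 = f (b 0) := by
  obtain ⟨v, hv⟩ := exists_not_eigen hf
  refine ⟨basisOfLinearIndependentOfCardEqFinrank hv (by rw [hd]; rfl), ?_⟩
  simp [coe_basisOfLinearIndependentOfCardEqFinrank]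

theorem exists_eq_of_commute {f g : Module.End K V} (hf : ∀ c : K, f ≠ c • 1) (h : g * f = f * g) :
    ∃ α β : K, g = α • 1 + β • f := by
  obtain ⟨b, hb⟩ := exists_cyclic_basis hd hf
  refine ⟨b.repr (g (b 0)) 0, b.repr (g (b 0)) 1, b.ext fun i => ?_⟩
  have h0 : g (b 0) = (b.repr (g (b 0)) 0 • (1 : Module.End K V) + b.repr (g (b 0)) 1 • f) (b 0) := by
    conv_lhs => rw [← b.sum_repr (g (b 0))]
    rw [Fin.sum_univ_two, hb]
    rfl
  fin_cases i
  · exact h0
  · show g (b 1) = _
    rw [show b ⟨1, by omega⟩ = b 1 from rfl, hb]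
    have h1 : g (f (b 0)) = f (g (b 0)) := LinearMap.congr_fun h (b 0)
    rw [h1]
    conv_lhs => rw [h0]
    simp

theorem exists_quadratic {f : Module.End K V} (hf : ∀ c : K, f ≠ c • 1) :
    ∃ c t : K, f * f = c • 1 + t • f :=
  exists_eq_of_commute hd hf (mul_assoc f f f).symm

theorem coeff_eq {f : Module.End K V} (hf : ∀ c : K, f ≠ c • 1) {a b a' b' : K}
    (h : a • (1 : Module.End K V) + b • f = a' • 1 + b' • f) : a = a' ∧ b = b' := by
  obtain ⟨e, he⟩ := exists_cyclic_basis hd hf
  have h0 : (a - a') • e 0 + (b - b') • e 1 = 0 := by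
    have := LinearMap.congr_fun h (e 0)
    simp only [LinearMap.add_apply, LinearMap.smul_apply, Module.End.one_apply] at this
    rw [he, sub_smul, sub_smul, show a • e 0 - a' • e 0 + (b • f (e 0) - b' • f (e 0))
      = (a • e 0 + b • f (e 0)) - (a' • e 0 + b' • f (e 0)) by abel, this, sub_self]
  have hli := Fintype.linearIndependent_iff.1 e.linearIndependent ![a - a', b - b'] (by
    simpa [Fin.sum_univ_two] using h0)
  exact ⟨sub_eq_zero.1 (hli 0), sub_eq_zero.1 (hli 1)⟩

theorem discr_ne_zero (hp : p ≠ 2) {f : Module.End K V} (hf : ∀ c : K, f ≠ c • 1) {m : ℕ}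
    (hm : ¬ p ∣ m) (hfm : f ^ m = 1) {c t : K} (hq : f * f = c • 1 + t • f) :
    t * t + 4 * c ≠ 0 := by
  intro hδ
  have h2 : (2 : K) ≠ 0 := by
    intro h
    have : ((2 : ℕ) : K) = 0 := by exact_mod_cast h
    rw [CharP.cast_eq_zero_iff K p] at this
    exact hp ((Nat.prime_dvd_prime_iff_eq (Fact.out : p.Prime) Nat.prime_two).1 this)
  obtain ⟨s, rfl⟩ : ∃ s : K, t = 2 * s := ⟨t / 2, by field_simp⟩
  have hc : c = -(s * s) := by
    have h4 : (4 : K) ≠ 0 := by
      rw [show (4 : K) = 2 * 2 by norm_num]; exact mul_ne_zero h2 h2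
    exact eq_neg_of_add_eq_zero_right (mul_left_cancel₀ h4 (by rw [mul_zero, ← hδ]; ring))
  have hNN : (f - s • 1) * (f - s • 1) = 0 := by
    simp only [sub_mul, mul_sub, smul_mul_assoc, mul_smul_comm, one_mul, mul_one, smul_smul, hq, hc]
    module
  have hpow : ∀ k : ℕ, f ^ (k + 1) = s ^ (k + 1) • 1 + ((k + 1 : ℕ) * s ^ k : K) • (f - s • 1) := by
    intro k
    induction k with
    | zero => simp
    | succ k ih =>
      rw [pow_succ f (k + 1), ih]
      have hf' : f = s • 1 + (f - s • 1) := by abel
      generalize hN : f - s • 1 = N at hNN hf'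
      rw [hf']
      simp only [add_mul, mul_add, smul_mul_assoc, mul_smul_comm, one_mul, mul_one, hNN, smul_zero, smul_smul,
        add_zero]
      push_cast
      module
  obtain ⟨k, rfl⟩ := Nat.exists_eq_succ_of_ne_zero (show m ≠ 0 by rintro rfl; exact hm (dvd_zero p))
  rw [hpow k] at hfm
  by_cases hs : s = 0
  · subst hs
    rcases k with _ | k
    · simp at hfm
      exact hf 1 (by rw [one_smul]; exact hfm)
    · simp at hfm
      exact hf 0 (LinearMap.ext fun v => by
        rw [show v = (1 : Module.End K V) v from rfl, ← hfm]; simp)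
  have hcoef : ((k + 1 : ℕ) * s ^ k : K) ≠ 0 :=
    mul_ne_zero (by rwa [Ne, CharP.cast_eq_zero_iff K p]) (pow_ne_zero _ hs)
  have h := (coeff_eq hd hf (a := s ^ (k + 1) - ((k + 1 : ℕ) * s ^ k : K) * s)
    (b := ((k + 1 : ℕ) * s ^ k : K)) (a' := 1) (b' := 0) (by
      rw [zero_smul, add_zero, one_smul]
      refine Eq.trans ?_ hfm
      simp only [sub_smul, smul_sub, smul_smul]
      abel)).2
  exact hcoef h

omit hd
variable (H : Subgroup (Module.End K V)ˣ)

/-- The scalar elements. -/
def scalars [Finite H] : Subgroup H where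
  carrier := {g | ∃ c : K, ((g : (Module.End K V)ˣ) : Module.End K V) = c • 1}
  one_mem' := ⟨1, (one_smul _ _).symm⟩
  mul_mem' := fun {g g'} ⟨c, hc⟩ ⟨c', hc'⟩ => ⟨c * c', by
    rw [Subgroup.coe_mul, Units.val_mul, hc, hc', smul_mul_smul_comm, mul_one]⟩
  inv_mem' := fun {g} ⟨c, hc⟩ => by
    refine ⟨c ^ (orderOf g - 1), ?_⟩
    have h : g⁻¹ = g ^ (orderOf g - 1) := by
      refine inv_eq_of_mul_eq_one_right ?_
      rw [← pow_succ', Nat.sub_add_cancel (orderOf_pos g), pow_orderOf_eq_one]
    rw [h, SubgroupClass.coe_pow, Units.val_pow_eq_pow_val, hc, smul_pow, one_pow]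

variable {H}
include hd

theorem hyp [Finite H] (hp : p ≠ 2) (hcop : ¬ p ∣ Nat.card H) : Hyp (scalars H) := by
  constructor
  · intro g hg
    obtain ⟨c, hc⟩ := hg
    exact Subgroup.mem_center_iff.2 fun x => Subtype.ext (Units.ext (by
      simp [hc]))
  · intro g hg x y hx hy
    have hf : ∀ c : K, ((g : (Module.End K V)ˣ) : Module.End K V) ≠ c • 1 := fun c h => hg ⟨c, h⟩
    obtain ⟨a, b, hxe⟩ := exists_eq_of_commute hd hf (congrArg (fun u : H => ((u : (Module.End K V)ˣ) : Module.End K V)) hx :)
    obtain ⟨a', b', hye⟩ := exists_eq_of_commute hd hf (congrArg (fun u : H => ((u : (Module.End K V)ˣ) : Module.End K V)) hy :)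
    refine Subtype.ext (Units.ext ?_)
    simp only [Subgroup.coe_mul, Units.val_mul, hxe, hye, add_mul, mul_add, smul_mul_assoc, mul_smul_comm,
      one_mul, mul_one, smul_smul]
    module
  · intro g hg x y hx hy
    set f := ((g : (Module.End K V)ˣ) : Module.End K V) with hfdef
    have hf : ∀ c : K, f ≠ c • 1 := fun c h => hg ⟨c, h⟩
    obtain ⟨c, t, hq⟩ := exists_quadratic hd hf
    have hm : f ^ Nat.card H = 1 := by
      rw [hfdef, ← Units.val_pow_eq_pow_val, ← SubgroupClass.coe_pow, pow_card_eq_one']; rfl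
    have hδ := discr_ne_zero hd hp hf hcop hm hq
    have key : ∀ x : H, x * g * x⁻¹ ∈ C g →
        ((x * g * x⁻¹ : H) : (Module.End K V)ˣ) = (g : (Module.End K V)ˣ) ∨
        (((x * g * x⁻¹ : H) : (Module.End K V)ˣ) : Module.End K V) = t • 1 - f := by
      intro x hx
      obtain ⟨a, b, he⟩ := exists_eq_of_commute hd hf
        (congrArg (fun u : H => ((u : (Module.End K V)ˣ) : Module.End K V)) (mem_C.1 hx) :)
      set X : (Module.End K V)ˣ := (x : (Module.End K V)ˣ)
      have he' : (X : Module.End K V) * f * (X⁻¹ : (Module.End K V)ˣ) = a • 1 + b • f := he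
      have hb : b ≠ 0 := by
        intro hb0
        rw [hb0, zero_smul, add_zero] at he'
        refine hf a ?_
        calc f = (X⁻¹ : (Module.End K V)ˣ) * ((X : Module.End K V) * f * (X⁻¹ : (Module.End K V)ˣ)) * X := by
              simp [mul_assoc]
          _ = a • 1 := by rw [he']; simp
      have hsq : (a • 1 + b • f) * (a • 1 + b • f) = c • 1 + t • (a • 1 + b • f) := by
        rw [← he']
        calc (X : Module.End K V) * f * (X⁻¹ : (Module.End K V)ˣ) * ((X : Module.End K V) * f * (X⁻¹ : (Module.End K V)ˣ))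
            = (X : Module.End K V) * (f * f) * (X⁻¹ : (Module.End K V)ˣ) := by simp [mul_assoc]
          _ = _ := by
            rw [hq]
            simp [mul_add, add_mul, mul_assoc]
      have hsq' : (a * a + b * b * c) • (1 : Module.End K V) + (2 * a * b + b * b * t) • f
          = (c + t * a) • 1 + (t * b) • f := by
        rw [show (c + t * a) • (1 : Module.End K V) + (t * b) • f = c • 1 + t • (a • 1 + b • f) by module,
          ← hsq]
        simp only [add_mul, mul_add, smul_mul_assoc, mul_smul_comm, one_mul, mul_one, smul_smul, hq]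
        module
      obtain ⟨h1, h2⟩ := coeff_eq hd hf hsq'
      have ha : 2 * a + b * t = t := mul_left_cancel₀ hb (by linear_combination h2)
      have hb2 : (b - 1) * (b + 1) * (t * t + 4 * c) = 0 := by
        linear_combination 4 * h1 - (2 * a - t - b * t) * ha
      rcases mul_eq_zero.1 ((mul_eq_zero.1 hb2).resolve_right hδ) with h | h
      · have hb1 : b = 1 := sub_eq_zero.1 h
        subst hb1
        have ha0 : a = 0 := by
          have h20 : (2 : K) * a = 0 := by linear_combination ha
          refine (mul_eq_zero.1 h20).resolve_left ?_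
          intro h2'
          have : ((2 : ℕ) : K) = 0 := by exact_mod_cast h2'
          rw [CharP.cast_eq_zero_iff K p] at this
          exact hp ((Nat.prime_dvd_prime_iff_eq (Fact.out : p.Prime) Nat.prime_two).1 this)
        left
        exact Units.ext (by rw [he, ha0]; simp [f])
      · have hb1 : b = -1 := eq_neg_of_add_eq_zero_left h
        subst hb1
        have hat : a = t := by
          have h20 : (2 : K) * a = 2 * t := by linear_combination ha
          refine mul_left_cancel₀ ?_ h20
          intro h2'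
          have : ((2 : ℕ) : K) = 0 := by exact_mod_cast h2'
          rw [CharP.cast_eq_zero_iff K p] at this
          exact hp ((Nat.prime_dvd_prime_iff_eq (Fact.out : p.Prime) Nat.prime_two).1 this)
        right
        rw [he, hat, neg_one_smul, sub_eq_add_neg]
    rcases key x hx with h | h
    · exact Or.inl (Subtype.ext h)
    rcases key y hy with h' | h'
    · exact Or.inr (Or.inl (Subtype.ext h'))
    exact Or.inr (Or.inr (Subtype.ext (Units.ext (h.trans h'.symm))))

end CfsgLib.CoprimeTransitive.PlaneField
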