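import Cfsg.Agent.Lib.CoprimeTransitive.KGVSetup
import Cfsg.Agent.Lib.CoprimeTransitive.KGVSquare
import Cfsg.Agent.Lib.CoprimeTransitive.KGVRows
import Cfsg.Agent.Lib.CoprimeTransitive.PlaneField
import Cfsg.Agent.Lib.CoprimeTransitive.PlaneCount
import Cfsg.Agent.Lib.OrderDegrees.LinearClassify
import Cfsg.Agent.Lib.TransitiveLinear.Exceptional
import Cfsg.Agent.Lib.CharTheory.Burnside
import Cfsg.Agent.Lib.SL2.Card

/-!
# Transitive linear groups of coprime order in degree at least three
-/

set_option autoImplicit false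
set_option linter.unusedSectionVars false
set_option linter.style.haveILetI false

namespace CfsgLib.CoprimeTransitive

open CfsgLib.PermGroups.Regular CfsgLib.TransitiveLinear CfsgLib.Zsigmondy CfsgLib.OrderDegrees.Linear
open CfsgLib.CharTheory (isIrrCharacter_character character_eq_finrank_iff finrank_dvd_card)
open Module

/-- The order of a faithful irreducible group with a prime more than the degree plus one. -/
theorem classify_consequence {G : Type} [Group G] [Finite G] {r : ℕ} [Fact r.Prime] {V : Type}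
    [AddCommGroup V] [Module ℂ V] [FiniteDimensional ℂ V] (ρ : Representation ℂ G V) [ρ.IsIrreducible]
    (hρ : Function.Injective ρ) (hd : finrank ℂ V + 1 < r) (h7 : 7 < r) (hnc : ¬ PComm r ρ) :
    Nat.card (G ⧸ Subgroup.center G) = r * (r ^ 2 - 1) / 2 ∨ (2 ∣ Nat.card G ∧ finrank ℂ V + 2 = r) ∨
      ∃ e t, finrank ℂ V + e = r ∧ r = e * t + 1 ∧ 3 ≤ e ∧ e + 3 ≤ t := by
  classical
  obtain ⟨P⟩ : Nonempty (Sylow r G) := inferInstance
  have hP : ¬ (P : Subgroup G).Normal := fun hn => hnc fun x y hx hy => by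
    haveI := Sylow.unique_of_normal P hn
    have hmem : ∀ z : G, PElt r z → z ∈ (P : Subgroup G) := fun z hz => by
      obtain ⟨Q, hQ⟩ := (isPGroup_zpowers hz).exists_le_sylow
      rw [Subsingleton.elim P Q]
      exact hQ (Subgroup.mem_zpowers z)
    rw [← map_mul, ← map_mul, commute_of_pGroup (by omega) hρ P.isPGroup' (hmem x hx) (hmem y hy)]
  let χ : Cfsg.IrrCharacter G := ⟨ρ.character, isIrrCharacter_character ρ⟩
  have hdeg : Cfsg.charDegree (χ : G → ℂ) = finrank ℂ V := by
    simp [χ, Cfsg.charDegree, ρ.char_one]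
  have hfaith : ∀ g : G, (χ : G → ℂ) g = (χ : G → ℂ) 1 → g = 1 := fun g hg => by
    simp only [χ] at hg
    rw [ρ.char_one, character_eq_finrank_iff] at hg
    exact hρ (by rw [hg, map_one, Module.End.one_eq_id])
  have hquot : Nat.card (G ⧸ Subgroup.center G) ∣ Nat.card G := Subgroup.card_quotient_dvd_card _
  rcases classify hdeg hfaith hd h7 hP with ⟨⟨iso⟩, -⟩ | ⟨h2, K, iK, iKf, a, F, iF, iFf, hra, hF, ⟨isoK⟩, ⟨iso⟩⟩ |
    ⟨e, t, h1, h2, h3, h4, -⟩
  · left
    rw [Nat.card_congr iso.toEquiv, SL2.card_PSL, Nat.card_zmod,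
      Nat.gcd_eq_left (by obtain ⟨c, hc⟩ := (Fact.out : r.Prime).odd_of_ne_two (by omega); exact ⟨c, by omega⟩)]
  · refine Or.inr (Or.inl ⟨?_, h2⟩)
    refine dvd_trans ?_ hquot
    rw [Nat.card_congr iso.toEquiv]
    have h1 := Subgroup.card_eq_card_quotient_mul_card_subgroup (Subgroup.center K)
    rw [Nat.card_congr isoK.toEquiv, Nat.card_prod] at h1
    rw [← Nat.eq_of_mul_eq_mul_right Nat.card_pos h1, SL2.card_SL, Nat.card_eq_fintype_card, hF]
    refine dvd_mul_of_dvd_left (dvd_pow_self 2 fun ha => ?_) _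
    rw [ha, pow_zero] at hra
    omega
  · exact Or.inr (Or.inr ⟨e, t, h1, h2, h3, h4⟩)

open Replacement in
/-- An element of order seven acting in a plane over a field without seventh roots of unity. -/
theorem plane_seven {p : ℕ} [Fact p.Prime] (hp2 : p ≠ 2) {G : Type*} [Group G] [Finite G] {K : Type*}
    [Field K] [Finite K] [CharP K p] {V : Type*} [AddCommGroup V] [Module K V] [Nontrivial V]
    (hd : finrank K V = 2) (C : Subgroup G) [C.Normal] (hcop : ¬ p ∣ Nat.card C) (lin : C →* Module.End K V)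
    (hinj : Function.Injective lin) (h7 : ¬ 7 ∣ Nat.card K - 1) {y : G} (hyC : y ∈ C) (hy : orderOf y = 7) :
    ∃ D : Subgroup G, D.Normal ∧ IsMulCommutative D ∧ y ∈ D := by
  classical
  have hlin : Function.Injective lin.toHomUnits := fun a b h => hinj (congrArg Units.val h)
  obtain ⟨e, he⟩ : ∃ e : C ≃* lin.toHomUnits.range, ∀ g, ((e g : lin.toHomUnits.range) :
      (Module.End K V)ˣ) = lin.toHomUnits g := ⟨MonoidHom.ofInjective hlin, fun _ => rfl⟩
  haveI : Finite lin.toHomUnits.range := Finite.of_equiv _ e.toEquiv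
  have hH := PlaneField.hyp hd (H := lin.toHomUnits.range) hp2 (by rwa [← Nat.card_congr e.toEquiv])
  set Z : Subgroup C := (PlaneField.scalars lin.toHomUnits.range).comap e.toMonoidHom with hZ
  have hHyp : LinearTI.Hyp Z := by
    constructor
    · intro g hg
      refine Subgroup.mem_center_iff.2 fun x => e.injective ?_
      rw [map_mul, map_mul]
      exact Subgroup.mem_center_iff.1 (hH.central hg) _
    · intro g hg x y hx hy
      refine e.injective ?_
      rw [map_mul, map_mul]
      exact hH.abelian (e g) hg (e x) (e y) (by rw [← map_mul, hx, map_mul]) (by rw [← map_mul, hy, map_mul])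
    · intro g hg x y hx hy
      have hC' : ∀ x : C, x ∈ LinearTI.C g → e x ∈ LinearTI.C (e g) := fun x hx => by
        rw [LinearTI.mem_C] at hx ⊢
        rw [← map_mul, hx, map_mul]
      have hx' := hC' _ hx
      have hy' := hC' _ hy
      simp only [map_mul, map_inv] at hx' hy'
      rcases hH.two (e g) hg (e x) (e y) hx' hy' with h | h | h
      · exact Or.inl (e.injective (by simpa using h))
      · exact Or.inr (Or.inl (e.injective (by simpa using h)))
      · exact Or.inr (Or.inr (e.injective (by simpa using h)))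
  haveI : Fintype C := Fintype.ofFinite C
  haveI : Fintype K := Fintype.ofFinite K
  have hnotZ : ∀ g : C, orderOf g = 7 → g ∉ Z := by
    intro g hg hgZ
    obtain ⟨c, hc'⟩ := hgZ
    rw [MulEquiv.coe_toMonoidHom, he, MonoidHom.coe_toHomUnits] at hc'
    obtain ⟨v, hv⟩ := exists_ne (0 : V)
    have h1 : c ^ 7 = 1 := by
      have h2 := congrArg lin (show g ^ 7 = 1 by rw [← hg, pow_orderOf_eq_one])
      rw [map_pow, map_one, hc', smul_pow, one_pow] at h2
      have h3 := LinearMap.congr_fun h2 v
      rw [LinearMap.smul_apply, Module.End.one_apply] at h3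
      have h4 : (c ^ 7 - 1) • v = 0 := by rw [sub_smul, one_smul, h3, sub_self]
      exact sub_eq_zero.1 ((smul_eq_zero.1 h4).resolve_right hv)
    have hc0 : c ≠ 0 := fun h => by rw [h] at h1; simp at h1
    have h2 : orderOf c ∣ Nat.card K - 1 := orderOf_dvd_of_pow_eq_one (by
      rw [Nat.card_eq_fintype_card]; exact FiniteField.pow_card_sub_one_eq_one c hc0)
    have hc1 : c = 1 := by
      rcases (Nat.dvd_prime (by norm_num : Nat.Prime 7)).1 (orderOf_dvd_of_pow_eq_one h1) with h | h
      · exact orderOf_eq_one_iff.1 h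
      · exact absurd (h ▸ h2) h7
    have : g = 1 := hinj (by rw [hc', hc1, one_smul, map_one])
    rw [this, orderOf_one] at hg
    omega
  have hk7 : ∀ g : C, orderOf g = 7 → 6 ≤ Z.relIndex (LinearTI.C g) := by
    intro g hg
    haveI : (Z.subgroupOf (LinearTI.C g)).Normal := ⟨fun z hz x => by
      rw [Subgroup.mem_subgroupOf] at hz ⊢
      rw [Subgroup.coe_mul, Subgroup.coe_mul, Subgroup.coe_inv,
        Subgroup.mem_center_iff.1 (hHyp.central hz) x, mul_inv_cancel_right]
      exact hz⟩
    have h1 := Subgroup.pow_index_mem (Z.subgroupOf (LinearTI.C g)) ⟨g, LinearTI.mem_C.2 rfl⟩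
    rw [Subgroup.mem_subgroupOf] at h1
    change g ^ Z.relIndex (LinearTI.C g) ∈ Z at h1
    have h0 : Z.relIndex (LinearTI.C g) ≠ 0 := Subgroup.index_ne_zero_of_finite
    by_contra hlt
    have hco : Nat.Coprime (Z.relIndex (LinearTI.C g)) (orderOf g) := by
      rw [hg]
      exact ((Nat.Prime.coprime_iff_not_dvd (by norm_num)).2 fun h => by
        have := Nat.le_of_dvd (by omega) h; omega).symm
    obtain ⟨m, hm⟩ := exists_pow_eq_self_of_coprime hco
    exact hnotZ g hg (hm ▸ Z.pow_mem h1 m)
  set y' : C := ⟨y, hyC⟩ with hy'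
  have hy7 : orderOf y' = 7 := by rw [hy', Subgroup.orderOf_mk, hy]
  refine ⟨(LinearTI.C y').map C.subtype, ⟨fun u hu g => ?_⟩, ?_, ⟨y', LinearTI.mem_C.2 rfl, rfl⟩⟩
  · obtain ⟨u, hu, rfl⟩ := hu
    set z : C := MulAut.conjNormal g y' with hz
    have hz7 : orderOf z = 7 := by rw [hz, ← hy7]; exact (MulAut.conjNormal g).orderOf_eq y'
    refine ⟨MulAut.conjNormal g u, ?_, MulAut.conjNormal_apply g u⟩
    rw [SetLike.mem_coe, ← LinearTI.eq_of_six_le hHyp (hnotZ y' hy7) (hnotZ z hz7)
      (hk7 y' hy7) (by have := hk7 z hz7; omega), LinearTI.mem_C, hz, ← map_mul, ← map_mul,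
      LinearTI.mem_C.1 hu]
  · refine IsMulCommutative.of_comm ?_
    rintro ⟨a, a', ha, rfl⟩ ⟨b, b', hb, rfl⟩
    refine Subtype.ext ?_
    show (C.subtype a') * (C.subtype b') = C.subtype b' * C.subtype a'
    rw [← map_mul, ← map_mul, hHyp.abelian y' (hnotZ y' hy7) a' b'
      (LinearTI.mem_C.1 ha) (LinearTI.mem_C.1 hb)]

variable {p n : ℕ} [hpf : Fact p.Prime] {H : Subgroup (Space p n ≃ₗ[ZMod p] Space p n)}
  (hn3 : 3 ≤ n) (hp' : ¬ p ∣ Nat.card H)
  (htr : ∀ v w : Space p n, v ≠ 0 → w ≠ 0 → ∃ h : H, (h : Space p n ≃ₗ[ZMod p] Space p n) v = w)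
  (hI : ∀ A : Subgroup H, A.Normal → IsMulCommutative A → ¬ Irred A)

include hn3 htr hI

/-- The field generated by an abelian normal subgroup. -/
theorem field_degree {A : Subgroup H} (hA : A.Normal) (hc : IsMulCommutative A) :
    finrank (ZMod p) (alg A) ∣ n ∧ 2 * finrank (ZMod p) (alg A) ≤ n ∧
      Nat.card A ∣ p ^ finrank (ZMod p) (alg A) - 1 := by
  have hn : 0 < n := by omega
  haveI := finite_group (H := H)
  haveI := nontrivial_space (p := p) hn
  haveI : Finite (Module.End (ZMod p) (Space p n)) :=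
    Finite.of_injective (fun f : Module.End (ZMod p) (Space p n) => (f : Space p n → Space p n))
      DFunLike.coe_injective
  have hS := transitive_isInj_of_abelian htr hA hc
  refine ⟨?_, ?_, ?_⟩
  · letI : Field (alg A) := hS.isField.toField
    let emb : alg A →+* Module.End (ZMod p) (Space p n) :=
      { toFun := Subtype.val
        map_one' := rfl
        map_mul' := fun _ _ => rfl
        map_zero' := rfl
        map_add' := fun _ _ => rfl }
    letI : Module (alg A) (Space p n) := Module.compHom (Space p n) emb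
    haveI : IsScalarTower (ZMod p) (alg A) (Space p n) := ⟨fun c r v => rfl⟩
    haveI : Module.Finite (alg A) (Space p n) := Module.Finite.of_finite
    haveI : Module.Free (alg A) (Space p n) := Module.Free.of_divisionRing (alg A) (Space p n)
    have h := Module.finrank_mul_finrank (ZMod p) (alg A) (Space p n)
    rw [Module.finrank_fin_fun] at h
    exact Dvd.intro _ h
  · by_contra h2
    refine hI A hA hc fun W hW => or_iff_not_imp_left.2 fun hW0 => ?_
    obtain ⟨u, hu, hu0⟩ := Submodule.exists_mem_ne_zero_of_ne_bot hW0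
    by_contra hWt
    obtain ⟨x, -, hx⟩ := SetLike.exists_of_lt (lt_top_iff_ne_top.2 hWt)
    have hx' : x ∉ orb (alg A) u := fun h => hx (orb_le_of_invUnder hW hu h)
    have hx0 : x ≠ 0 := fun h => hx (h ▸ Submodule.zero_mem _)
    have hinf : orb (alg A) u ⊓ orb (alg A) x = ⊥ := by
      rw [Submodule.eq_bot_iff]
      rintro y ⟨h1, h3⟩
      by_contra hy
      exact hx' (orb_le h1 (transitive_orb_symm htr hA h3 hy))
    have h1 := Submodule.finrank_sup_add_finrank_inf_eq (orb (alg A) u) (orb (alg A) x)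
    rw [hinf, finrank_bot, finrank_orb hS hu0, finrank_orb hS hx0] at h1
    have h3 := Submodule.finrank_le (orb (alg A) u ⊔ orb (alg A) x)
    rw [Module.finrank_fin_fun] at h3
    omega
  · have := (hS.isCyclic_and_card_dvd (K := A) fun a ha => mem_alg ha).2
    rwa [natCard_eq_pow] at this

/-- A nontrivial subgroup of a primitive prime power order is not abelian normal. -/
theorem no_normal_ppd {r : ℕ} (hr : IsPpd p n r) {A : Subgroup H} (hA : A.Normal)
    (hc : IsMulCommutative A) {y : H} (hy : y ∈ A) (hyr : ∃ k, y ^ r ^ k = 1) (hy1 : y ≠ 1) : False :=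
  hI A hA hc (irred_of_ppd (by omega) hr hy hyr hy1)

include hp'

/-- Commuting elements of `s`-power order generate an abelian normal subgroup. -/
theorem pComm_field {s : ℕ} [Fact s.Prime] {W : Type} [AddCommGroup W] [Module ℂ W]
    {ρ : Representation ℂ H W} (hρ : Function.Injective ρ) (hcomm : PComm s ρ) (hs : s ∣ Nat.card H) :
    ∃ A : Subgroup H, A.Normal ∧ IsMulCommutative A ∧ s ∣ Nat.card A := by
  haveI := finite_group (H := H)
  refine ⟨Subgroup.closure {z : H | PElt s z}, ?_, Subgroup.isMulCommutative_closure (k := {z : H | PElt s z})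
    fun u hu v hv => hcomm.commute hρ hu hv, ?_⟩
  · constructor
    intro a ha g
    induction ha using Subgroup.closure_induction with
    | mem z hz => exact Subgroup.subset_closure (PElt.conj hz g)
    | one => simp
    | mul u v _ _ h1 h2 => simpa [mul_assoc] using mul_mem h1 h2
    | inv u _ h1 => simpa [mul_assoc] using inv_mem h1
  · obtain ⟨y, hy⟩ := exists_prime_orderOf_dvd_card' s hs
    have hmem : y ∈ Subgroup.closure {z : H | PElt s z} :=
      Subgroup.subset_closure (pElt_of_orderOf (k := 1) (by rw [hy, pow_one]))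
    have := orderOf_dvd_natCard (⟨y, hmem⟩ : Subgroup.closure {z : H | PElt s z})
    rwa [Subgroup.orderOf_mk, hy] at this

/-- A primitive prime divides the order only once. -/
theorem ppd_not_sq {r : ℕ} (hr : IsPpd p n r) : ¬ r ^ 2 ∣ Nat.card H := by
  have hn : 0 < n := by omega
  haveI := finite_group (H := H)
  haveI := nontrivial_space (p := p) hn
  haveI := Fact.mk hr.1
  obtain ⟨ρ, hρ⟩ := exists_complex hn hp'
  have hlt := hr.lt hpf.out.one_lt hn
  have hfr : finrank ℂ (Fin n → ℂ) = n := Module.finrank_fin_fun ℂ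
  refine not_sq_dvd_of_abelian_centralizers r H (Fin n → ℂ) ρ hρ (by omega) (fun y hy hy1 a b ha hb => ?_)
    fun D hD hDp => ?_
  · have hS := isInj_commutant (irred_of_ppd hn hr (Subgroup.mem_zpowers y) hy hy1)
    have hmem : ∀ x : H, x * y = y * x → endHom H x ∈ commutant (Subgroup.zpowers y) := fun x hx =>
      commute_of_mem_commutant.2 (Subgroup.mem_centralizer_iff.2 fun z hz => by
        obtain ⟨i, rfl⟩ := Subgroup.mem_zpowers_iff.1 hz
        exact ((show Commute x y from hx).zpow_right i).eq.symm)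
    exact endHom_injective H (by rw [map_mul, map_mul]; exact hS.comm (hmem a ha) (hmem b hb))
  · by_contra hD1
    obtain ⟨y, hy, hy1⟩ := (Subgroup.bot_or_exists_ne_one _).resolve_left hD1
    exact no_normal_ppd hn3 htr hI hr hD (IsMulCommutative.of_comm fun a b => Subtype.ext
      (commute_of_pGroup (by omega) hρ hDp a.2 b.2)) hy (pElt_of_isPGroup hDp hy) hy1

/-- The prime `2 n + 1` forces the order of a projective special linear group. -/
theorem half_degree {r : ℕ} [Fact r.Prime] (hr : r = 2 * n + 1) (h7 : 7 < r)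
    {ρ : Representation ℂ H (Fin n → ℂ)} (hρ : Function.Injective ρ) (hnc : ¬ PComm r ρ) :
    Nat.card (H ⧸ Subgroup.center H) = r * (r ^ 2 - 1) / 2 := by
  haveI := finite_group (H := H)
  obtain ⟨s, t, -, hirr, hns⟩ := exists_big hnc
  haveI := hirr
  have hfr : finrank ℂ (Fin n → ℂ) = n := Module.finrank_fin_fun ℂ
  have hsle := Submodule.finrank_le s.toSubmodule
  have hs' := small (ρ := s.toRepresentation) (by omega) hns
  have hs : s = ⊤ :=
    Subrepresentation.toSubmodule_injective (Submodule.eq_top_of_finrank_eq (by omega))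
  subst hs
  haveI := CharTheory.isIrreducible_of_equiv (CharTheory.topEquiv ρ)
  rcases classify_consequence ρ hρ (by omega) h7 hnc with h | ⟨-, h⟩ | ⟨e, t, h1, h2, h3, h4⟩
  · exact h
  · omega
  · exfalso
    have : e * t = 2 * n := by omega
    rw [hfr] at h1
    nlinarith

omit hn3 hp' htr hI in
theorem small_base_table : ∀ n < 14, 4 ≤ n → (2 * n + 1) * ((2 * n + 1) ^ 2 - 1) / 2 < 40 ^ (n / 2) + 1 := by
  decide +kernel

omit hn3 hp' htr hI in
theorem psl_table' : ((List.range 14).all fun n => decide (n < 4) || (List.range 40).all fun p =>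
    decide (p < 5) || decide ((2 * n + 1) * ((2 * n + 1) ^ 2 - 1) / 2 % p = 0) ||
    decide ((2 * n + 1) * ((2 * n + 1) ^ 2 - 1) / 2 < p ^ (n / 2) + 1) ||
    !maybePrime p || !maybePrime (2 * n + 1) || decide ((p ^ n - 1) % (2 * n + 1) ≠ 0) ||
      ((List.range n).any fun k => k != 0 && (p ^ k - 1) % (2 * n + 1) == 0)) = true := by
  decide +kernel

omit hn3 hp' htr hI in
theorem psl_table {n p : ℕ} (hn : n < 14) (hn4 : 4 ≤ n) (hp : p < 40) (hp5 : 5 ≤ p)
    (h1 : ¬ (2 * n + 1) * ((2 * n + 1) ^ 2 - 1) / 2 % p = 0)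
    (h2 : (2 * n + 1) * ((2 * n + 1) ^ 2 - 1) / 2 ≥ p ^ (n / 2) + 1) :
    maybePrime p = false ∨ maybePrime (2 * n + 1) = false ∨ (p ^ n - 1) % (2 * n + 1) ≠ 0 ∨
      ((List.range n).any fun k => k != 0 && (p ^ k - 1) % (2 * n + 1) == 0) = true := by
  have h := psl_table'
  rw [List.all_eq_true] at h
  have h' := h n (List.mem_range.2 hn)
  rw [Bool.or_eq_true, List.all_eq_true] at h'
  have h'' := (h'.resolve_left (by simp; omega)) p (List.mem_range.2 hp)
  simp only [Bool.or_eq_true, decide_eq_true_eq, Bool.not_eq_true'] at h''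
  rcases h'' with (((((h | h) | h) | h) | h) | h) | h
  · omega
  · exact absurd h h1
  · omega
  · exact Or.inl h
  · exact Or.inr (Or.inl h)
  · exact Or.inr (Or.inr (Or.inl h))
  · exact Or.inr (Or.inr (Or.inr h))

omit hn3 hp' htr hI in
theorem big_exponent (n : ℕ) (hn : 14 ≤ n) :
    (2 * n + 1) * ((2 * n + 1) ^ 2 - 1) / 2 < 5 ^ (n / 2) + 1 := by
  suffices h : ∀ m, 7 ≤ m → 4 * (2 * m + 2) ^ 3 ≤ 5 ^ m by
    have h1 := h (n / 2) (by omega)
    have h2 : (2 * n + 1) * ((2 * n + 1) ^ 2 - 1) / 2 ≤ (2 * n + 1) * (2 * n + 1) ^ 2 / 2 :=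
      Nat.div_le_div_right (Nat.mul_le_mul_left _ (Nat.sub_le _ _))
    have h3 : (2 * n + 1) * (2 * n + 1) ^ 2 ≤ (2 * (2 * (n / 2) + 2)) ^ 3 := by
      rw [← pow_succ']
      exact Nat.pow_le_pow_left (by omega) 3
    have h4 : (2 * (2 * (n / 2) + 2)) ^ 3 / 2 = 4 * (2 * (n / 2) + 2) ^ 3 := by
      rw [mul_pow]; omega
    have := (h2.trans (Nat.div_le_div_right h3)).trans (h4.le.trans h1)
    omega
  intro m hm
  induction m, hm using Nat.le_induction with
  | base => norm_num
  | succ m hm ih =>
    rw [pow_succ 5 m]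
    have : (2 * (m + 1) + 2) ^ 3 ≤ 5 * (2 * m + 2) ^ 3 := by
      ring_nf
      nlinarith
    omega

/-- A primitive prime is never `2 n + 1`, apart from degree three. -/
theorem ppd_ne_double (hn4 : 4 ≤ n) {r : ℕ} (hr : IsPpd p n r) : r ≠ 2 * n + 1 := by
  intro hre
  have hn : 0 < n := by omega
  haveI := finite_group (H := H)
  haveI := nontrivial_space (p := p) hn
  haveI := Fact.mk hr.1
  obtain ⟨ρ, hρ⟩ := exists_complex hn hp'
  have hrH : r ∣ Nat.card H := hr.2.1.trans (pow_sub_one_dvd hn htr)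
  have hnc : ¬ PComm r ρ := fun h => by
    obtain ⟨A, hA, hc, hrA⟩ := pComm_field hn3 hp' htr hI hρ h hrH
    obtain ⟨y, hy⟩ := exists_prime_orderOf_dvd_card' r hrA
    refine no_normal_ppd hn3 htr hI hr hA hc y.2 ⟨1, ?_⟩ fun e => hr.1.ne_one ?_
    · rw [pow_one, ← SubgroupClass.coe_pow, ← hy, pow_orderOf_eq_one, Subgroup.coe_one]
    · rw [← hy, ← Subgroup.orderOf_coe, e, orderOf_one]
  set N := r * (r ^ 2 - 1) / 2 with hN
  have h24 : 24 ∣ r * (r ^ 2 - 1) := by
    refine dvd_mul_of_dvd_right ?_ r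
    have hr5 : 5 ≤ r := by omega
    have h2 : r % 2 = 1 := by omega
    have h3 : r % 3 ≠ 0 := fun h => by
      have := (Nat.prime_dvd_prime_iff_eq Nat.prime_three hr.1).1 (Nat.dvd_of_mod_eq_zero h)
      omega
    have hmod : r ^ 2 % 24 = 1 := by
      rw [Nat.pow_mod]
      have : r % 24 = 1 ∨ r % 24 = 5 ∨ r % 24 = 7 ∨ r % 24 = 11 ∨ r % 24 = 13 ∨ r % 24 = 17 ∨
          r % 24 = 19 ∨ r % 24 = 23 := by omega
      rcases this with h | h | h | h | h | h | h | h <;> rw [h] <;> rfl
    exact (Nat.modEq_iff_dvd' (Nat.one_le_pow _ _ (by omega))).1 (show 1 % 24 = r ^ 2 % 24 by rw [hmod])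
  have h12 : 12 ∣ N := by
    obtain ⟨c, hc⟩ := h24
    exact ⟨c, by rw [hN, hc]; omega⟩
  have hquot := half_degree hn3 hp' htr hI hre (by omega) hρ hnc
  rw [← hN] at hquot
  have hcard := Subgroup.card_eq_card_quotient_mul_card_subgroup (Subgroup.center H)
  rw [hquot] at hcard
  have hdvd : N ∣ Nat.card H := Dvd.intro _ hcard.symm
  have hpN : ¬ p ∣ N := fun h => hp' (h.trans hdvd)
  have hp5 : 5 ≤ p := by
    have := hpf.out.two_le
    have h4 : p ≠ 4 := fun h => by subst h; exact absurd hpf.out (by norm_num)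
    by_contra hlt
    rcases (show p = 2 ∨ p = 3 by omega) with rfl | rfl
    · exact hpN ((show (2 : ℕ) ∣ 12 by norm_num).trans h12)
    · exact hpN ((show (3 : ℕ) ∣ 12 by norm_num).trans h12)
  obtain ⟨-, h2k, hZk⟩ := field_degree hn3 htr hI (A := Subgroup.center H) inferInstance
    (IsMulCommutative.of_comm fun a b => Subtype.ext ((Subgroup.mem_center_iff.1 b.2) a))
  set k := finrank (ZMod p) (alg (Subgroup.center H))
  set m := n / 2 with hm
  have hpm : 2 ≤ p ^ m := le_trans hpf.out.two_le (Nat.le_self_pow (by omega) p)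
  have hle : Nat.card (Subgroup.center H) ≤ p ^ m - 1 := by
    have h1 : p ^ k ≤ p ^ m := Nat.pow_le_pow_right hpf.out.pos (by omega)
    rcases Nat.eq_zero_or_pos (p ^ k - 1) with h | h
    · have hk0 : k = 0 := by
        by_contra hk
        have := Nat.one_lt_pow hk hpf.out.one_lt
        omega
      haveI : Finite (Module.End (ZMod p) (Space p n)) :=
        Finite.of_injective (fun f : Module.End (ZMod p) (Space p n) => (f : Space p n → Space p n))
          DFunLike.coe_injective
      haveI := (transitive_isInj_of_abelian htr (M := Subgroup.center H) inferInstance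
        (IsMulCommutative.of_comm fun a b => Subtype.ext ((Subgroup.mem_center_iff.1 b.2) a))).isField.nontrivial
      exact absurd hk0 Module.finrank_pos.ne'
    · have := Nat.le_of_dvd h hZk
      omega
  have hH : p ^ n - 1 ≤ Nat.card H := Nat.le_of_dvd Nat.card_pos (pow_sub_one_dvd hn htr)
  have hmain : p ^ m + 1 ≤ N := by
    have h1 : p ^ m * p ^ m ≤ p ^ n := by
      rw [← pow_add]; exact Nat.pow_le_pow_right hpf.out.pos (by omega)
    have h2 : Nat.card H ≤ N * (p ^ m - 1) := hcard.le.trans (Nat.mul_le_mul_left _ hle)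
    obtain ⟨x, hx⟩ : ∃ x, p ^ m = x + 1 := ⟨p ^ m - 1, by omega⟩
    rw [hx] at h1 h2 hpm ⊢
    simp only [Nat.add_sub_cancel] at h2
    have h3 : (x + 1 + 1) * x ≤ N * x := by
      have : (x + 1) * (x + 1) = (x + 1 + 1) * x + 1 := by ring
      omega
    exact Nat.le_of_mul_le_mul_right h3 (by omega)
  rw [hN, hre] at hmain
  rw [hN, hre] at hpN
  by_cases hn14 : 14 ≤ n
  · have h1 := big_exponent n hn14
    rw [← hm] at h1
    have h2 : 5 ^ m ≤ p ^ m := Nat.pow_le_pow_left hp5 m
    omega
  have hp40 : p < 40 := by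
    by_contra h
    have h1 := small_base_table n (by omega) hn4
    rw [← hm] at h1
    have h2 : 40 ^ m ≤ p ^ m := Nat.pow_le_pow_left (by omega) m
    omega
  rcases psl_table (by omega) hn4 hp40 hp5 (fun h => hpN (Nat.dvd_of_mod_eq_zero h)) hmain with
    h | h | h | h
  · rw [maybePrime_of_prime hpf.out] at h; exact absurd h (by decide)
  · rw [← hre, maybePrime_of_prime hr.1] at h; exact absurd h (by decide)
  · exact h (Nat.mod_eq_zero_of_dvd (hre ▸ hr.2.1))
  · simp only [List.any_eq_true, List.mem_range, Bool.and_eq_true, beq_iff_eq, bne_iff_ne, ne_eq] at h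
    obtain ⟨j, hj, hj0, hjd⟩ := h
    exact hr.2.2 j (by omega) hj (hre ▸ Nat.dvd_of_mod_eq_zero hjd)

omit hn3 hp' htr hI in
/-- Odd orders with three small primes. -/
theorem isSolvable_odd {G : Type} [Group G] [Finite G] {a b : ℕ} (hodd : ¬ 2 ∣ Nat.card G)
    (hdvd : Nat.card G ∣ 3 ^ a * 5 * 7 ^ b) : Group.IsSolvable G := by
  classical
  by_cases h5 : 5 ∣ Nat.card G
  swap
  · refine CharTheory.isSolvable_of_card_dvd_pow_mul_pow 3 7 a b Nat.prime_three (by norm_num) ?_
    have : Nat.Coprime (Nat.card G) 5 := ((Nat.Prime.coprime_iff_not_dvd (by norm_num)).2 h5).symm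
    exact this.dvd_of_dvd_mul_right (by rwa [mul_right_comm] at hdvd)
  haveI : Fact (Nat.Prime 5) := ⟨by norm_num⟩
  obtain ⟨P⟩ : Nonempty (Sylow 5 G) := inferInstance
  have hfac : (Nat.card G).factorization 5 = 1 := by
    refine le_antisymm ?_ ((Fact.out : Nat.Prime 5).factorization_pos_of_dvd Nat.card_pos.ne' h5)
    by_contra h
    push Not at h
    have h25 : 5 ^ 2 ∣ 3 ^ a * 5 * 7 ^ b :=
      (((Fact.out : Nat.Prime 5).pow_dvd_iff_le_factorization Nat.card_pos.ne').2 h).trans hdvd
    have h55 : 5 ∣ 3 ^ a * 7 ^ b := by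
      rw [mul_right_comm, sq] at h25
      exact Nat.dvd_of_mul_dvd_mul_right (by norm_num) h25
    rcases (Nat.Prime.dvd_mul Fact.out).1 h55 with h' | h'
    · exact absurd ((Fact.out : Nat.Prime 5).dvd_of_dvd_pow h') (by norm_num)
    · exact absurd ((Fact.out : Nat.Prime 5).dvd_of_dvd_pow h') (by norm_num)
  have hP : Nat.card (P : Subgroup G) = 5 := by rw [P.card_eq_multiplicity, hfac, pow_one]
  haveI : IsCyclic (P : Subgroup G) := isCyclic_of_prime_card hP
  have hNC : Subgroup.normalizer ((P : Subgroup G) : Set G) ≤ Subgroup.centralizer ((P : Subgroup G) : Set G) := by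
    set f := Subgroup.normalizerMonoidHom (P : Subgroup G) with hf
    have h4 : Nat.card (MulAut (P : Subgroup G)) = 4 := by
      rw [IsCyclic.card_mulAut, hP, Nat.totient_prime Fact.out]
    have h1 : Nat.card f.range ∣ 4 := h4 ▸ Subgroup.card_subgroup_dvd_card f.range
    have h2 : Nat.card f.range ∣ Nat.card G :=
      (Subgroup.card_range_dvd f).trans (Subgroup.card_subgroup_dvd_card _)
    have h3 : f.ker = ⊤ := by
      rw [MonoidHom.ker_eq_top_iff, ← MonoidHom.range_eq_bot_iff, ← Subgroup.card_eq_one]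
      have hco : Nat.Coprime (Nat.card G) (2 ^ 2) :=
        ((Nat.prime_two.coprime_iff_not_dvd).2 hodd).symm.pow_right 2
      exact Nat.eq_one_of_dvd_coprimes hco h2 h1
    rw [Subgroup.normalizerMonoidHom_ker] at h3
    exact Subgroup.subgroupOf_eq_top.1 h3
  set K := (MonoidHom.transferSylow P hNC).ker
  have hK := MonoidHom.ker_transferSylow_isComplement' P hNC
  have hcard := hK.card_mul
  rw [hP] at hcard
  haveI : Group.IsSolvable K := by
    refine CharTheory.isSolvable_of_card_dvd_pow_mul_pow 3 7 a b Nat.prime_three (by norm_num) ?_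
    refine Nat.dvd_of_mul_dvd_mul_right (show 0 < 5 by norm_num) ?_
    rw [hcard]
    exact hdvd.trans (dvd_of_eq (by ring))
  haveI : Group.IsSolvable (G ⧸ K) := by
    refine Group.isSolvable_of_surjective
      (f := (QuotientGroup.mk' K).comp (P : Subgroup G).subtype) fun q => ?_
    obtain ⟨g, rfl⟩ := QuotientGroup.mk'_surjective K q
    obtain ⟨⟨k, x⟩, hkx : (k : G) * x = g⟩ := hK.2 g
    refine ⟨x, ?_⟩
    rw [← hkx, map_mul, show QuotientGroup.mk' K (k : G) = 1 from (QuotientGroup.eq_one_iff _).2 k.2, one_mul]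
    rfl
  exact Group.isSolvable_of_ker_le_range K.subtype (QuotientGroup.mk' K) (by simp)

/-- The only primitive prime. -/
theorem ppd_only {r : ℕ} (hr : IsPpd p n r) : r = onlyPpd n ∧ ¬ r ^ 2 ∣ p ^ n - 1 := by
  have hn : 0 < n := by omega
  refine ⟨?_, fun h => ppd_not_sq hn3 hp' htr hI hr (h.trans (pow_sub_one_dvd hn htr))⟩
  rcases ppd_small hn hp' htr hn3 hI hr with h | ⟨h, -⟩
  · rw [onlyPpd]
    split_ifs with h3
    · subst h3; exact absurd hr.1 (by rw [h]; norm_num)
    · exact h
  · rw [onlyPpd]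
    split_ifs with h3
    · omega
    · exact absurd h (ppd_ne_double hn3 hp' htr hI (by omega) hr)

/-- Solvable groups only live on 81 vectors. -/
theorem solvable_card (hs : Group.IsSolvable H) : p ^ n = 81 ∨ n ≤ 2 := by
  haveI := nontrivial_space (p := p) (show 0 < n by omega)
  have hNI : NoIrredCyclic H := fun A hA hc => by
    have h := hI A hA hc.isMulCommutative
    simp only [Irred, not_forall, not_or] at h
    obtain ⟨W, hW, h0, h1⟩ := h
    exact ⟨W, h0, h1, hW⟩
  have h := exceptional_card htr hNI hs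
  rw [card_space] at h
  have h8 : p ^ 3 ≤ p ^ n := Nat.pow_le_pow_right hpf.out.pos hn3
  rcases h with h | h | h | h | h | h
  all_goals first | exact Or.inl h | skip
  all_goals
    obtain ⟨i, -, hi⟩ := (Nat.dvd_prime_pow hpf.out).1 (dvd_refl (p ^ n))
    have hp := hpf.out
    have hpd : p ∣ p ^ n := dvd_pow_self p (by omega)
    rw [h] at hpd h8
    have hple : p ≤ 9 := by
      by_contra hc
      have : 10 ^ 3 ≤ p ^ 3 := Nat.pow_le_pow_left (by omega) 3
      omega
    interval_cases p <;> first | omega | (norm_num at hp) | skip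
    all_goals
      rcases Nat.lt_or_ge n 4 with hn4 | hn4
      · interval_cases n <;> omega
      · have : p ^ 4 ≤ p ^ n := Nat.pow_le_pow_right hpf.out.pos hn4
        omega

/-- Two with a large exponent. -/
theorem two_large (hp2 : p = 2) (hnev : Even n) (hn10 : 10 ≤ n) (hn18 : n ≤ 18) (hpr : (n + 1).Prime)
    (hr : IsPpd p n (n + 1)) : False := by
  have hn : 0 < n := by omega
  haveI := finite_group (H := H)
  haveI := Fact.mk hpr
  obtain ⟨ρ, hρ⟩ := exists_complex hn hp'
  have hrH : n + 1 ∣ Nat.card H := hr.2.1.trans (pow_sub_one_dvd hn htr)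
  have hnc : ¬ PComm (n + 1) ρ := fun h => by
    obtain ⟨A, hA, hc, hrA⟩ := pComm_field hn3 hp' htr hI hρ h hrH
    obtain ⟨y, hy⟩ := exists_prime_orderOf_dvd_card' (n + 1) hrA
    refine no_normal_ppd hn3 htr hI hr hA hc y.2 ⟨1, ?_⟩ fun e => hpr.ne_one ?_
    · rw [pow_one, ← SubgroupClass.coe_pow, ← hy, pow_orderOf_eq_one, Subgroup.coe_one]
    · rw [← hy, ← Subgroup.orderOf_coe, e, orderOf_one]
  have hodd : ¬ 2 ∣ Nat.card H := hp2 ▸ hp'
  obtain ⟨s, t, -, hirr, hns⟩ := exists_big hnc
  haveI := hirr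
  have hsle := Submodule.finrank_le s.toSubmodule
  rw [Module.finrank_fin_fun] at hsle
  set d := finrank ℂ s.toSubmodule with hd
  have hdodd : Odd d := by
    rw [← Nat.not_even_iff_odd, even_iff_two_dvd]
    haveI := Fintype.ofFinite H
    exact fun h => hodd (h.trans (finrank_dvd_card s.toRepresentation))
  have hdn : d + 1 < n + 1 := by
    obtain ⟨i, hi⟩ := hdodd
    obtain ⟨j, hj⟩ := hnev
    omega
  have hsmall := small (ρ := s.toRepresentation) (by omega) hns
  haveI := finite_img (ρ := s.toRepresentation)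
  haveI := isIrreducible_imgRep (ρ := s.toRepresentation)
  have himg := card_img_dvd (ρ := s.toRepresentation)
  rcases classify_consequence (imgRep s.toRepresentation) imgRep_injective (by omega) (by omega)
    (not_pComm_imgRep hns) with h | ⟨h, -⟩ | ⟨e, u, h1, h2, h3, h4⟩
  · refine hodd (dvd_trans ?_ ((Subgroup.card_quotient_dvd_card (Subgroup.center (img s.toRepresentation))).trans himg))
    rw [h]
    rcases (show n = 10 ∨ n = 11 ∨ n = 12 ∨ n = 13 ∨ n = 14 ∨ n = 15 ∨ n = 16 ∨ n = 17 ∨ n = 18 by omega)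
      with rfl | rfl | rfl | rfl | rfl | rfl | rfl | rfl | rfl <;> first | (norm_num; done) | norm_num at hpr
  · exact hodd (h.trans himg)
  · obtain ⟨i, hi⟩ := hdodd
    obtain ⟨j, hj⟩ := hnev
    have he4 : 4 ≤ e := by omega
    have : 4 * 7 ≤ e * u := Nat.mul_le_mul he4 (by omega)
    omega

set_option maxHeartbeats 1000000 in
/-- The plane over a field of order `p ^ 3`. -/
theorem six_false (hp35 : p = 3 ∨ p = 5) (hn6 : n = 6) {A : Subgroup H} (hA : A.Normal)
    (hc : IsMulCommutative A) (hk : finrank (ZMod p) (alg A) = 3) : False := by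
  classical
  subst hn6
  haveI := finite_group (H := H)
  haveI := nontrivial_space (p := p) (n := 6) (by norm_num)
  haveI : Finite (Module.End (ZMod p) (Space p 6)) :=
    Finite.of_injective (fun f : Module.End (ZMod p) (Space p 6) => (f : Space p 6 → Space p 6))
      DFunLike.coe_injective
  have hr : IsPpd p 6 7 := by
    rcases hp35 with rfl | rfl <;>
      exact ⟨by norm_num, by norm_num, fun j hj0 hj => by interval_cases j <;> norm_num⟩
  haveI : Fact (Nat.Prime 7) := ⟨by norm_num⟩
  have hS := transitive_isInj_of_abelian htr hA hc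
  obtain ⟨ψ, hfin, hcardψ, hψ⟩ := exists_conj_field hS fun g r hr => conj_mem_alg hA g hr
  haveI := hfin
  rw [hk] at hcardψ
  have hker7 : ∀ y : H, orderOf y = 7 → y ∈ ψ.ker := fun y hy => by
    rw [MonoidHom.mem_ker, ← orderOf_eq_one_iff]
    have h1 := orderOf_map_dvd ψ y
    rw [hy] at h1
    have h2 := Nat.le_of_dvd Nat.card_pos (orderOf_dvd_natCard (ψ y))
    rcases (Nat.dvd_prime (by norm_num : Nat.Prime 7)).1 h1 with h | h
    · exact h
    · omega
  set C := ψ.ker with hC
  haveI : CharP (alg A) p := charP_of_injective_algebraMap (R := ZMod p) (A := alg A)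
    (by haveI := hS.isField.nontrivial; exact (algebraMap (ZMod p) (alg A)).injective) p
  letI : Field (alg A) := hS.isField.toField
  let emb : alg A →+* Module.End (ZMod p) (Space p 6) :=
    { toFun := Subtype.val
      map_one' := rfl
      map_mul' := fun _ _ => rfl
      map_zero' := rfl
      map_add' := fun _ _ => rfl }
  letI : Module (alg A) (Space p 6) := Module.compHom (Space p 6) emb
  haveI : IsScalarTower (ZMod p) (alg A) (Space p 6) := ⟨fun c r v => rfl⟩
  haveI : Module.Finite (alg A) (Space p 6) := Module.Finite.of_finite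
  haveI : Module.Free (alg A) (Space p 6) := Module.Free.of_divisionRing (alg A) (Space p 6)
  have hd : finrank (alg A) (Space p 6) = 2 := by
    have h := Module.finrank_mul_finrank (ZMod p) (alg A) (Space p 6)
    rw [Module.finrank_fin_fun, hk] at h
    omega
  let lin : C →* Module.End (alg A) (Space p 6) :=
    { toFun := fun g =>
        { toFun := endHom H g
          map_add' := map_add _
          map_smul' := fun k v => LinearMap.congr_fun ((hψ g).1 (MonoidHom.mem_ker.1 g.2) k k.2) v }
      map_one' := LinearMap.ext fun v => rfl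
      map_mul' := fun a c => LinearMap.ext fun v => rfl }
  obtain ⟨y, hy⟩ := exists_prime_orderOf_dvd_card' 7 (hr.2.1.trans (pow_sub_one_dvd (by norm_num) htr))
  have hpK : ¬ 7 ∣ Nat.card (alg A) - 1 := by
    rw [natCard_eq_pow, hk]
    rcases hp35 with rfl | rfl <;> norm_num
  have hinj : Function.Injective lin := fun a b h => Subtype.ext (endHom_injective H
    (LinearMap.ext fun v => LinearMap.congr_fun h v))
  haveI : C.Normal := inferInstance
  obtain ⟨D, hD, hDc, hyD⟩ := plane_seven (p := p) (by omega) hd C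
    (fun h => hp' (h.trans (Subgroup.card_subgroup_dvd_card C))) lin hinj hpK (hker7 y hy) hy
  exact no_normal_ppd hn3 htr hI hr hD hDc hyD ⟨1, by rw [pow_one, ← hy, pow_orderOf_eq_one]⟩
    fun h => by rw [h, orderOf_one] at hy; omega

/-- In degree at least three only `3 ^ 4` is left. -/
theorem eq_three_four : p = 3 ∧ n = 4 := by
  have hn : 0 < n := by omega
  haveI := finite_group (H := H)
  have hleft := left_pairs hpf.out hn3 fun r hr => ppd_only hn3 hp' htr hI hr
  have hsolv : Group.IsSolvable H → p ^ n = 81 := fun h =>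
    (solvable_card hn3 hp' htr hI h).resolve_right (by omega)
  have hdiv : Nat.card H ∣ ∏ i : Fin n, (p ^ n - p ^ (i : ℕ)) := by
    rw [← card_GL]; exact Subgroup.card_subgroup_dvd_card H
  have hodd : p = 2 → ∀ {i m : ℕ}, Nat.card H ∣ 2 ^ i * m → Nat.card H ∣ m := fun h {i m} hm =>
    (Nat.Coprime.pow_right i ((Nat.prime_two.coprime_iff_not_dvd).2 (h ▸ hp')).symm).dvd_of_dvd_mul_left hm
  simp only [leftPairs, List.mem_cons, List.not_mem_nil, or_false, Prod.mk.injEq] at hleft
  rcases hleft with ⟨rfl, rfl⟩ | ⟨rfl, rfl⟩ | ⟨rfl, rfl⟩ | ⟨rfl, rfl⟩ | ⟨rfl, rfl⟩ | ⟨rfl, rfl⟩ |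
    ⟨rfl, rfl⟩ | ⟨rfl, rfl⟩ | ⟨rfl, rfl⟩
  · simp only [Fin.prod_univ_succ, Fin.prod_univ_zero] at hdiv
    norm_num at hdiv
    have h := hodd rfl (i := 3) (m := 21) (by norm_num; exact hdiv)
    have := hsolv (isSolvable_odd (a := 1) (b := 1) hp' (h.trans (by norm_num)))
    norm_num at this
  · simp only [Fin.prod_univ_succ, Fin.prod_univ_zero] at hdiv
    norm_num at hdiv
    have h := hodd rfl (i := 6) (m := 315) (by norm_num; exact hdiv)
    have := hsolv (isSolvable_odd (a := 2) (b := 1) hp' (h.trans (by norm_num)))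
    norm_num at this
  · simp only [Fin.prod_univ_succ, Fin.prod_univ_zero] at hdiv
    norm_num at hdiv
    have h := hodd rfl (i := 15) (m := 615195) (by norm_num; exact hdiv)
    haveI : Fact (Nat.Prime 31) := ⟨by norm_num⟩
    have h31 : ¬ 31 ∣ Nat.card H := fun h31 => by
      obtain ⟨ρ, hρ⟩ := exists_complex hn hp'
      have hcomm : PComm 31 ρ := by
        by_contra hnc
        have := small (ρ := ρ) (by rw [Module.finrank_fin_fun]; norm_num) hnc
        rw [Module.finrank_fin_fun] at this
        omega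
      obtain ⟨A, hA, hc, hsA⟩ := pComm_field hn3 hp' htr hI hρ hcomm h31
      obtain ⟨hkn, hk2, hkA⟩ := field_degree hn3 htr hI hA hc
      have hkd := hsA.trans hkA
      have hk3 : finrank (ZMod 2) (alg A) ≤ 3 := by omega
      haveI : Finite (Module.End (ZMod 2) (Space 2 6)) :=
        Finite.of_injective (fun f : Module.End (ZMod 2) (Space 2 6) => (f : Space 2 6 → Space 2 6))
          DFunLike.coe_injective
      interval_cases hkk : finrank (ZMod 2) (alg A) <;> norm_num at hkd
      haveI := nontrivial_space (p := 2) hn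
      haveI := (transitive_isInj_of_abelian htr hA hc).isField.nontrivial
      exact absurd hkk Module.finrank_pos.ne'
    have h' := ((Nat.Prime.coprime_iff_not_dvd Fact.out).2 h31).symm.dvd_of_dvd_mul_left
      (show Nat.card H ∣ 31 * 19845 by norm_num; exact h)
    have := hsolv (isSolvable_odd (a := 4) (b := 2) hp' (h'.trans (by norm_num)))
    norm_num at this
  · exact (two_large hn3 hp' htr hI rfl ⟨5, rfl⟩ (by norm_num) (by norm_num) (by norm_num)
      ⟨by norm_num, by norm_num, fun j hj0 hj => by interval_cases j <;> norm_num⟩).elim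
  · exact (two_large hn3 hp' htr hI rfl ⟨6, rfl⟩ (by norm_num) (by norm_num) (by norm_num)
      ⟨by norm_num, by norm_num, fun j hj0 hj => by interval_cases j <;> norm_num⟩).elim
  · exact (two_large hn3 hp' htr hI rfl ⟨9, rfl⟩ (by norm_num) (by norm_num) (by norm_num)
      ⟨by norm_num, by norm_num, fun j hj0 hj => by interval_cases j <;> norm_num⟩).elim
  · exact ⟨rfl, rfl⟩
  · exfalso
    obtain ⟨ρ, hρ⟩ := exists_complex hn hp'
    haveI : Fact (Nat.Prime 13) := ⟨by norm_num⟩
    have h13 : 13 ∣ Nat.card H := (show 13 ∣ 3 ^ 6 - 1 by norm_num).trans (pow_sub_one_dvd hn htr)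
    by_cases hcomm : PComm 13 ρ
    · obtain ⟨A, hA, hc, hsA⟩ := pComm_field hn3 hp' htr hI hρ hcomm h13
      obtain ⟨-, hk2, hkA⟩ := field_degree hn3 htr hI hA hc
      refine six_false hn3 hp' htr hI (Or.inl rfl) rfl hA hc ?_
      have hkd := hsA.trans hkA
      have hk3 : finrank (ZMod 3) (alg A) ≤ 3 := by omega
      haveI : Finite (Module.End (ZMod 3) (Space 3 6)) :=
        Finite.of_injective (fun f : Module.End (ZMod 3) (Space 3 6) => (f : Space 3 6 → Space 3 6))
          DFunLike.coe_injective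
      interval_cases hkk : finrank (ZMod 3) (alg A) <;> first | omega | norm_num at hkd
      haveI := nontrivial_space (p := 3) hn
      haveI := (transitive_isInj_of_abelian htr hA hc).isField.nontrivial
      exact absurd hkk Module.finrank_pos.ne'
    · have h := half_degree hn3 hp' htr hI (r := 13) (by norm_num) (by norm_num) hρ hcomm
      have h' := Subgroup.card_quotient_dvd_card (Subgroup.center H)
      rw [h] at h'
      exact hp' ((show (3 : ℕ) ∣ 13 * (13 ^ 2 - 1) / 2 by norm_num).trans h')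
  · exfalso
    obtain ⟨ρ, hρ⟩ := exists_complex hn hp'
    haveI : Fact (Nat.Prime 31) := ⟨by norm_num⟩
    have h31 : 31 ∣ Nat.card H := (show 31 ∣ 5 ^ 6 - 1 by norm_num).trans (pow_sub_one_dvd hn htr)
    have hcomm : PComm 31 ρ := by
      by_contra hnc
      have := small (ρ := ρ) (by rw [Module.finrank_fin_fun]; norm_num) hnc
      rw [Module.finrank_fin_fun] at this
      omega
    obtain ⟨A, hA, hc, hsA⟩ := pComm_field hn3 hp' htr hI hρ hcomm h31
    obtain ⟨-, hk2, hkA⟩ := field_degree hn3 htr hI hA hc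
    refine six_false hn3 hp' htr hI (Or.inr rfl) rfl hA hc ?_
    have hkd := hsA.trans hkA
    have hk3 : finrank (ZMod 5) (alg A) ≤ 3 := by omega
    haveI : Finite (Module.End (ZMod 5) (Space 5 6)) :=
      Finite.of_injective (fun f : Module.End (ZMod 5) (Space 5 6) => (f : Space 5 6 → Space 5 6))
        DFunLike.coe_injective
    interval_cases hkk : finrank (ZMod 5) (alg A) <;> first | omega | norm_num at hkd
    haveI := nontrivial_space (p := 5) hn
    haveI := (transitive_isInj_of_abelian htr hA hc).isField.nontrivial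
    exact absurd hkk Module.finrank_pos.ne'

end CfsgLib.CoprimeTransitive
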