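import Cfsg.Agent.Lib.CoprimeTransitive.KGVSetup
import Cfsg.Agent.Lib.CoprimeTransitive.Plane

/-!
# Class numbers of transitive plane groups of coprime order
-/

set_option autoImplicit false
set_option linter.unusedSectionVars false
set_option linter.style.haveILetI false

namespace CfsgLib.CoprimeTransitive

open CfsgLib.PermGroups.Regular CfsgLib.TransitiveLinear
open Module

variable {p : ℕ} [hpf : Fact p.Prime] {H : Subgroup (Space p 2 ≃ₗ[ZMod p] Space p 2)}
  (hp' : ¬ p ∣ Nat.card H)
  (htr : ∀ v w : Space p 2, v ≠ 0 → w ≠ 0 → ∃ h : H, (h : Space p 2 ≃ₗ[ZMod p] Space p 2) v = w)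
  (hI : ∀ A : Subgroup H, A.Normal → IsMulCommutative A → ¬ Irred A)

include hp' in
/-- The stabiliser of a non-zero vector embeds in the scalars. -/
theorem card_vecStab_le {v : Space p 2} (hv : v ≠ 0) : Nat.card (vecStab H v) ≤ p - 1 := by
  classical
  haveI := finite_group (H := H)
  obtain ⟨w, hw⟩ : ∃ w, w ∉ Submodule.span (ZMod p) ({v} : Set (Space p 2)) := by
    by_contra h
    push Not at h
    have h1 : Submodule.span (ZMod p) ({v} : Set (Space p 2)) = ⊤ := eq_top_iff.2 fun x _ => h x
    have h2 := finrank_span_singleton (K := ZMod p) hv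
    rw [h1, finrank_top, Module.finrank_fin_fun] at h2
    omega
  have hli : LinearIndependent (ZMod p) ![v, w] :=
    (LinearIndependent.pair_iff' hv).2 fun a ha => hw (Submodule.mem_span_singleton.2 ⟨a, ha⟩)
  let b := basisOfLinearIndependentOfCardEqFinrank hli (by simp)
  have hb0 : b 0 = v := by simp [b, coe_basisOfLinearIndependentOfCardEqFinrank]
  have hb1 : b 1 = w := by simp [b, coe_basisOfLinearIndependentOfCardEqFinrank]
  have hexp : ∀ x : Space p 2, x = b.repr x 0 • v + b.repr x 1 • w := fun x => by
    conv_lhs => rw [← b.sum_repr x, Fin.sum_univ_two, hb0, hb1]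
  let β : vecStab H v → ZMod p := fun g => b.repr (((g : H) : Space p 2 ≃ₗ[ZMod p] Space p 2) w) 1
  have hinj : Function.Injective β := by
    intro g g' h
    set x : vecStab H v := g'⁻¹ * g with hx
    set X := ((x : H) : Space p 2 ≃ₗ[ZMod p] Space p 2) with hX
    set G' := ((g' : H) : Space p 2 ≃ₗ[ZMod p] Space p 2) with hG'
    have hgv : G' v = v := g'.2
    set t := b.repr (((g : H) : Space p 2 ≃ₗ[ZMod p] Space p 2) w) 0 - b.repr (G' w) 0 with ht
    have h1 : G' (X w) = G' (w + t • v) := by
      have e : G' (X w) = ((g : H) : Space p 2 ≃ₗ[ZMod p] Space p 2) w := by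
        rw [hG', hX, ← LinearEquiv.mul_apply, ← Subgroup.coe_mul, ← Subgroup.coe_mul, hx, mul_inv_cancel_left]
      rw [e, map_add, map_smul, hgv]
      conv_lhs => rw [hexp (((g : H) : Space p 2 ≃ₗ[ZMod p] Space p 2) w)]
      conv_rhs => rw [hexp (G' w)]
      have h' : b.repr (((g : H) : Space p 2 ≃ₗ[ZMod p] Space p 2) w) 1 = b.repr (G' w) 1 := h
      rw [h', ht, sub_smul]
      abel
    have hXw := G'.injective h1
    have hXv : X v = v := x.2
    have hpow : ∀ i : ℕ, (X ^ i) w = w + ((i : ZMod p) * t) • v ∧ (X ^ i) v = v := by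
      intro i
      induction i with
      | zero => simp
      | succ i ih =>
        rw [pow_succ', LinearEquiv.mul_apply, LinearEquiv.mul_apply, ih.1, ih.2, map_add, map_smul, hXw, hXv]
        refine ⟨?_, rfl⟩
        push_cast
        rw [add_mul, one_mul, add_smul]
        abel
    have hone : X ^ Nat.card H = 1 := by
      rw [hX, ← SubgroupClass.coe_pow, pow_card_eq_one', Subgroup.coe_one]
    have h3 := (hpow (Nat.card H)).1
    rw [hone] at h3
    have h4 : ((Nat.card H : ZMod p) * t) • v = 0 := by
      have : w = w + ((Nat.card H : ZMod p) * t) • v := h3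
      exact left_eq_add.1 this
    have ht0 : t = 0 := ((mul_eq_zero.1 ((smul_eq_zero.1 h4).resolve_right hv))).resolve_left fun h0 =>
      hp' ((ZMod.natCast_eq_zero_iff _ _).1 h0)
    have hx1 : (x : H) = 1 := Subtype.ext (LinearEquiv.ext fun y => by
      show X y = y
      rw [hexp y, map_add, map_smul, map_smul, hXv, hXw, ht0, zero_smul, add_zero])
    exact (inv_mul_eq_one.1 (show g'⁻¹ * g = 1 from Subtype.ext hx1)).symm
  have hne : (0 : ZMod p) ∉ Set.range β := by
    rintro ⟨g, hg⟩
    set X := ((g : H) : Space p 2 ≃ₗ[ZMod p] Space p 2) with hX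
    have h1 : X w = X (b.repr (X w) 0 • v) := by
      rw [map_smul, show X v = v from g.2]
      conv_lhs => rw [hexp (X w), show b.repr (X w) 1 = 0 from hg, zero_smul, add_zero]
    exact hw (X.injective h1 ▸ Submodule.smul_mem _ _ (Submodule.mem_span_singleton_self v))
  have hlt : Nat.card (vecStab H v) < Nat.card (ZMod p) := by
    haveI : Fintype (vecStab H v) := Fintype.ofFinite _
    rw [Nat.card_eq_fintype_card, Nat.card_eq_fintype_card]
    exact Fintype.card_lt_of_injective_of_notMem β hinj hne
  rw [Nat.card_zmod] at hlt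
  omega

include htr hI

/-- An abelian normal subgroup is small and central. -/
theorem plane_abelian_normal {A : Subgroup H} (hA : A.Normal) (hc : IsMulCommutative A) :
    Nat.card A ≤ p - 1 ∧ A ≤ Subgroup.center H := by
  haveI := finite_group (H := H)
  haveI := nontrivial_space (p := p) (n := 2) two_pos
  haveI : Finite (Module.End (ZMod p) (Space p 2)) :=
    Finite.of_injective (fun f : Module.End (ZMod p) (Space p 2) => (f : Space p 2 → Space p 2))
      DFunLike.coe_injective
  have hS := transitive_isInj_of_abelian htr hA hc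
  obtain ⟨v, hv⟩ := exists_ne (0 : Space p 2)
  haveI : Nontrivial (alg A) := hS.isField.nontrivial
  have hpos : 0 < finrank (ZMod p) (alg A) := Module.finrank_pos
  have hk : finrank (ZMod p) (alg A) = 1 := by
    by_contra hne
    have h2 : finrank (ZMod p) (orb (alg A) v) = 2 := by
      have := Submodule.finrank_le (orb (alg A) v)
      rw [finrank_orb hS hv, Module.finrank_fin_fun] at this
      rw [finrank_orb hS hv]
      omega
    have htop : orb (alg A) v = ⊤ := Submodule.eq_top_of_finrank_eq (by rw [h2, Module.finrank_fin_fun])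
    refine hI A hA hc fun W hW => or_iff_not_imp_left.2 fun hW0 => ?_
    obtain ⟨u, hu, hu0⟩ := Submodule.exists_mem_ne_zero_of_ne_bot hW0
    rw [eq_top_iff]
    refine le_trans ?_ (orb_le_of_invUnder hW hu)
    rw [← htop]
    exact orb_le (transitive_orb_symm htr hA (htop ▸ Submodule.mem_top) hu0)
  refine ⟨?_, fun a ha => ?_⟩
  · have := (hS.isCyclic_and_card_dvd (K := A) fun a ha => mem_alg ha).2
    rw [natCard_eq_pow, hk, pow_one] at this
    exact Nat.le_of_dvd (by have := hpf.out.two_le; omega) this
  · have hspan : Submodule.span (ZMod p) ({v} : Set (Space p 2)) = orb (alg A) v :=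
      Submodule.eq_of_le_of_finrank_eq ((Submodule.span_singleton_le_iff_mem _ _).2 (self_mem_orb _ _))
        (by rw [finrank_span_singleton hv, finrank_orb hS hv, hk])
    obtain ⟨c, hc'⟩ := Submodule.mem_span_singleton.1
      (hspan.symm ▸ mem_orb.2 ⟨_, mem_alg ha, rfl⟩ : endHom H a v ∈ Submodule.span (ZMod p) {v})
    have hc'' : endHom H a - algebraMap (ZMod p) _ c = 0 :=
      hS _ ((alg A).sub_mem (mem_alg ha) ((alg A).algebraMap_mem c)) v hv (by
        rw [LinearMap.sub_apply, Module.algebraMap_end_apply, hc', sub_self])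
    exact Subgroup.mem_center_iff.2 fun g => endHom_injective H (by
      rw [map_mul, map_mul, sub_eq_zero.1 hc'', Algebra.commutes])

include hp'

/-- The plane case. -/
theorem plane_bound {v : Space p 2} (hv : v ≠ 0) : Bound H v := by
  classical
  haveI := finite_group (H := H)
  haveI := nontrivial_space (p := p) (n := 2) two_pos
  have hdvd := sq_sub_one_dvd htr
  have hH : p ^ 2 - 1 ≤ Nat.card H := Nat.le_of_dvd Nat.card_pos hdvd
  have hp2 := hpf.out.two_le
  have hsq : p * p = p ^ 2 := (sq p).symm
  have hpp : 2 * p ≤ p * p := Nat.mul_le_mul_right p hp2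
  have hnotcomm : ¬ IsMulCommutative (⊤ : Subgroup H) := fun h => by
    have h1 := (plane_abelian_normal htr hI inferInstance h).1
    rw [Subgroup.card_top] at h1
    omega
  have hp5 : 5 ≤ p := by
    by_contra hlt
    -- the group is then nilpotent
    have hpow : ∃ r k : ℕ, r.Prime ∧ Nat.card H = r ^ k := by
      rcases (show p = 2 ∨ p = 3 by
        have : p ≠ 4 := by rintro rfl; exact absurd hpf.out (by norm_num)
        omega) with rfl | rfl
      · have h6 : Nat.card H ∣ Nat.card (Space 2 2 ≃ₗ[ZMod 2] Space 2 2) := Subgroup.card_subgroup_dvd_card H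
        rw [card_GL, Fin.prod_univ_two] at h6
        norm_num at h6 hdvd
        refine ⟨3, 1, Nat.prime_three, ?_⟩
        have hco : Nat.Coprime (Nat.card H) 2 := ((Nat.prime_two.coprime_iff_not_dvd).2 hp').symm
        exact Nat.dvd_antisymm (hco.dvd_of_dvd_mul_left (show Nat.card H ∣ 2 * 3 from h6)) hdvd
      · have h48 : Nat.card H ∣ Nat.card (Space 3 2 ≃ₗ[ZMod 3] Space 3 2) := Subgroup.card_subgroup_dvd_card H
        rw [card_GL, Fin.prod_univ_two] at h48
        norm_num at h48
        have hco : Nat.Coprime (Nat.card H) 3 := ((Nat.prime_three.coprime_iff_not_dvd).2 hp').symm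
        obtain ⟨k, -, hk⟩ := (Nat.dvd_prime_pow Nat.prime_two).1
          (hco.dvd_of_dvd_mul_left (show Nat.card H ∣ 3 * 2 ^ 4 by norm_num; exact h48))
        exact ⟨2, k, Nat.prime_two, hk⟩
    obtain ⟨r, k, hr, hk⟩ := hpow
    haveI := Fact.mk hr
    have hP : IsPGroup r H := IsPGroup.of_card hk
    set Z := Subgroup.center H
    haveI : Group.IsNilpotent H := hP.isNilpotent
    obtain ⟨g, hgZ, hg⟩ : ∃ g : H, g ∉ Z ∧ ∀ x : H, x * g * x⁻¹ * g⁻¹ ∈ Z := by
      haveI : Nontrivial (H ⧸ Z) := by
        rw [QuotientGroup.nontrivial_iff]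
        intro h
        exact hnotcomm (IsMulCommutative.of_comm fun a b => Subtype.ext
          (Subgroup.mem_center_iff.1 (show (b : H) ∈ Z by rw [h]; exact Subgroup.mem_top _) a))
      haveI := (hP.to_quotient Z).center_nontrivial
      obtain ⟨c, hc⟩ := exists_ne (1 : Subgroup.center (H ⧸ Z))
      obtain ⟨g, hg⟩ := QuotientGroup.mk'_surjective Z (c : H ⧸ Z)
      refine ⟨g, fun h => hc (Subtype.ext (hg ▸ (QuotientGroup.eq_one_iff g).2 h)), fun x => ?_⟩
      rw [← QuotientGroup.eq_one_iff, QuotientGroup.mk_mul, QuotientGroup.mk_mul, QuotientGroup.mk_mul,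
        QuotientGroup.mk_inv, QuotientGroup.mk_inv, show (g : H ⧸ Z) = c from hg,
        Subgroup.mem_center_iff.1 c.2 x, mul_inv_cancel_right, mul_inv_cancel]
    set A := Subgroup.closure ({g} : Set H) ⊔ Z with hA
    have hAc : IsMulCommutative A := by
      rw [hA, Subgroup.sup_eq_closure]
      refine Subgroup.isMulCommutative_closure ?_
      have hC : ∀ x ∈ ((Subgroup.closure ({g} : Set H) : Set H) ∪ Z), x * g = g * x := by
        rintro x (hx | hx)
        · rw [SetLike.mem_coe, Subgroup.mem_closure_singleton] at hx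
          obtain ⟨i, rfl⟩ := hx
          exact ((Commute.refl g).zpow_left i).eq
        · exact (Subgroup.mem_center_iff.1 hx g).symm
      rintro x (hx | hx) y hy
      · rw [SetLike.mem_coe, Subgroup.mem_closure_singleton] at hx
        obtain ⟨i, rfl⟩ := hx
        exact ((show Commute y g from hC y hy).zpow_right i).eq.symm
      · exact (Subgroup.mem_center_iff.1 hx y).symm
    have hAn : A.Normal := by
      constructor
      intro a ha x
      have hZA : Z ≤ A := le_sup_right
      have hgA : g ∈ A := le_sup_left (a := Subgroup.closure ({g} : Set H)) (Subgroup.subset_closure rfl)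
      have hsub : A ≤ A.comap (MulAut.conj x).toMonoidHom := by
        refine sup_le ((Subgroup.closure_le _).2 ?_) fun z hz => ?_
        · intro y hy
          rw [Set.mem_singleton_iff.1 hy]
          show x * g * x⁻¹ ∈ A
          have := A.mul_mem (hZA (hg x)) hgA
          rwa [inv_mul_cancel_right] at this
        · show x * z * x⁻¹ ∈ A
          rw [Subgroup.mem_center_iff.1 hz x, mul_inv_cancel_right]
          exact hZA hz
      exact hsub ha
    exact hgZ ((plane_abelian_normal htr hI hAn hAc).2
      (le_sup_left (a := Subgroup.closure ({g} : Set H)) (Subgroup.subset_closure rfl)))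
  -- the stabiliser is small
  have hC : Nat.card (vecStab H v) ≤ p - 1 := card_vecStab_le hp' hv
  have hkC : Nat.card (ConjClasses (vecStab H v)) ≤ p - 1 :=
    (Nat.card_le_card_of_surjective _ ConjClasses.mk_surjective).trans hC
  have h5p : 5 * p ≤ p * p := Nat.mul_le_mul_right p hp5
  rcases plane_data hp' hp5 with ⟨A, hA, hc, hidx, -⟩ | ⟨Z, -, -, -, hz, N, Y, hNY, -, hY⟩
  · exfalso
    have h1 := (plane_abelian_normal htr hI hA hc).1
    have h2 := A.card_mul_index
    have : Nat.card A * A.index ≤ (p - 1) * 2 := Nat.mul_le_mul h1 hidx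
    omega
  · have hY8 : Y ≤ 8 := (show ∀ s ∈ PlaneCount.shapes, s.2 ≤ 8 by decide) _ hNY
    have hzle : Nat.card Z ≤ p - 1 := Nat.le_of_dvd (by omega) hz
    have h10 : (2 + Y) * Nat.card Z ≤ 10 * (p - 1) := Nat.mul_le_mul (by omega) hzle
    have hlt : Nat.card (ConjClasses H) + Nat.card (ConjClasses (vecStab H v)) < p ^ 2 := by
      rcases (show p = 5 ∨ 6 ≤ p by omega) with h | h
      · subst h; omega
      · have : 6 * p ≤ p * p := Nat.mul_le_mul_right p h
        omega
    exact ⟨hlt.le, fun h => absurd h hlt.ne⟩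

end CfsgLib.CoprimeTransitive
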