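import Cfsg.Agent.Lib.CoprimeTransitive.KGVSemilinear
import Cfsg.Agent.Lib.CoprimeTransitive.KGVPlane
import Cfsg.Agent.Lib.CoprimeTransitive.KGVHigh

/-!
# Class numbers of transitive linear groups of coprime order
-/

set_option autoImplicit false
set_option linter.style.haveILetI false

namespace CfsgLib.CoprimeTransitive

open CfsgLib.PermGroups.Regular
open Module

variable {p n : ℕ} [hpf : Fact p.Prime] {H : Subgroup (Space p n ≃ₗ[ZMod p] Space p n)}

/-- Every case except that of `3 ^ 4` vectors. -/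
theorem bound_of_not_eighty_one (hn : 0 < n) (hp' : ¬ p ∣ Nat.card H)
    (htr : ∀ v w : Space p n, v ≠ 0 → w ≠ 0 → ∃ h : H, (h : Space p n ≃ₗ[ZMod p] Space p n) v = w)
    {v : Space p n} (hv : v ≠ 0) :
    Bound H v ∨ ((∀ A : Subgroup H, A.Normal → IsMulCommutative A → ¬ Irred A) ∧ p = 3 ∧ n = 4) := by
  by_cases hI : ∀ A : Subgroup H, A.Normal → IsMulCommutative A → ¬ Irred A
  swap
  · push Not at hI
    obtain ⟨A, hA, hc, hirr⟩ := hI
    exact Or.inl (semilinear_bound hn hp' htr hA hc hirr hv)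
  rcases (show n = 1 ∨ n = 2 ∨ 3 ≤ n by omega) with rfl | rfl | h3
  · exfalso
    refine hI ⊥ inferInstance (IsMulCommutative.of_comm fun a b => Subsingleton.elim _ _) fun W _ => ?_
    have hW := Submodule.finrank_le W
    rw [Module.finrank_fin_fun] at hW
    rcases Nat.eq_zero_or_pos (finrank (ZMod p) W) with h | h
    · exact Or.inl (Submodule.finrank_eq_zero.1 h)
    · exact Or.inr (Submodule.eq_top_of_finrank_eq (by rw [Module.finrank_fin_fun]; omega))
  · exact Or.inl (plane_bound hp' htr hI hv)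
  · exact Or.inr ⟨hI, eq_three_four h3 hp' htr hI⟩

end CfsgLib.CoprimeTransitive
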