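import Cfsg.Agent.Lib.CoprimeTransitive.KGVSetup

/-!
# Class numbers of transitive semilinear groups of coprime order
-/

set_option autoImplicit false
set_option linter.unusedSectionVars false
set_option linter.style.haveILetI false

namespace CfsgLib.CoprimeTransitive

open CfsgLib.PermGroups.Regular CfsgLib.TransitiveLinear
open Module

theorem two_mul_add_one_lt : ∀ m : ℕ, 2 ≤ m → 2 * m + 1 < 3 ^ m := by
  intro m hm
  induction m, hm using Nat.le_induction with
  | base => norm_num
  | succ m hm ih => rw [pow_succ]; omega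

theorem add_one_lt_two_pow : ∀ m : ℕ, 2 ≤ m → m + 1 < 2 ^ m := by
  intro m hm
  induction m, hm using Nat.le_induction with
  | base => norm_num
  | succ m hm ih => rw [pow_succ]; omega

theorem odd_exponent_bound : ∀ n : ℕ, 5 ≤ n → n + 1 < 2 ^ (n - n / 3) := by
  intro n
  induction n using Nat.strong_induction_on with
  | _ n ih =>
    intro hn
    by_cases h : n < 8
    · interval_cases n <;> norm_num
    · have h1 := ih (n - 3) (by omega) (by omega)
      rw [show n - n / 3 = (n - 3 - (n - 3) / 3) + 2 by omega, pow_add]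
      omega

/-- The arithmetic of the semilinear case. -/
theorem semilinear_arith {p n e d : ℕ} (hp : p.Prime) (he : e ∣ n) (hn : 0 < n) (he2 : 2 ≤ e)
    (hpe : ¬ p ∣ e) (hd : d ∣ n) (hdn : d < n) :
    (e + 1) * p ^ d < p ^ n ∨ ((e + 1) * p ^ d = p ^ n ∧ ((p ^ n = 8 ∧ e = 3) ∨ (p ^ n = 9 ∧ e = 2))) := by
  obtain ⟨t, ht⟩ := hd
  have ht2 : 2 ≤ t := by
    rcases t with _ | _ | t
    · omega
    · omega
    · omega
  have hd2 : 2 * d ≤ n := by rw [ht, mul_comm 2 d]; exact Nat.mul_le_mul_left d ht2
  have hen : e ≤ n := Nat.le_of_dvd hn he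
  have hsplit : p ^ n = p ^ (n - d) * p ^ d := by rw [← pow_add, Nat.sub_add_cancel hdn.le]
  have hkey : e + 1 < p ^ (n - d) ∨ (e + 1 = p ^ (n - d) ∧ ((p ^ n = 8 ∧ e = 3) ∨ (p ^ n = 9 ∧ e = 2))) := by
    rcases Nat.even_or_odd n with ⟨m, hm⟩ | hodd
    · have hmd : p ^ m ≤ p ^ (n - d) := Nat.pow_le_pow_right hp.pos (by omega)
      rcases hp.eq_two_or_odd with rfl | hpo
      · have ho : Nat.Coprime e 2 :=
          (Nat.Prime.coprime_iff_not_dvd Nat.prime_two).2 hpe |>.symm
        have hem : e ∣ m := ho.dvd_of_dvd_mul_left (by rw [two_mul, ← hm]; exact he)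
        have hem' : e ≤ m := Nat.le_of_dvd (by omega) hem
        have := add_one_lt_two_pow m (by omega)
        left; omega
      · have h3 : 3 ^ m ≤ p ^ m := Nat.pow_le_pow_left (by have := hp.two_le; omega) m
        by_cases hm2 : 2 ≤ m
        · have := two_mul_add_one_lt m hm2
          left; omega
        · obtain rfl : m = 1 := by omega
          obtain rfl : n = 2 := by omega
          obtain rfl : e = 2 := by omega
          obtain rfl : d = 1 := by
            rcases Nat.eq_zero_or_pos d with h | h
            · rw [h, zero_mul] at ht; omega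
            · omega
          rcases (show p = 3 ∨ 3 < p by have := hp.two_le; omega) with rfl | h
          · exact Or.inr ⟨by norm_num, Or.inr ⟨by norm_num, rfl⟩⟩
          · left
            rw [show 2 - 1 = 1 from rfl, pow_one]
            omega
    · have ht3 : 3 ≤ t := by
        by_contra h
        obtain rfl : t = 2 := by omega
        rw [ht] at hodd
        exact (Nat.not_odd_iff_even.2 ⟨d, by omega⟩) hodd
      have he3 : 3 ≤ e := by
        by_contra h
        obtain rfl : e = 2 := by omega
        exact (Nat.not_odd_iff_even.2 (even_iff_two_dvd.2 he)) hodd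
      have hd3 : d ≤ n / 3 := by
        rw [Nat.le_div_iff_mul_le (by norm_num), ht]
        exact Nat.mul_le_mul_left d ht3
      have hpow : 2 ^ (n - n / 3) ≤ p ^ (n - d) :=
        (Nat.pow_le_pow_left hp.two_le _).trans (Nat.pow_le_pow_right hp.pos (by omega))
      by_cases hn5 : 5 ≤ n
      · have := odd_exponent_bound n hn5
        left; omega
      · obtain rfl : n = 3 := by obtain ⟨j, hj⟩ := hodd; omega
        obtain rfl : e = 3 := by omega
        obtain rfl : d = 1 := by
          rcases Nat.eq_zero_or_pos d with h | h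
          · rw [h, zero_mul] at ht; omega
          · omega
        rcases hp.two_le.eq_or_lt with rfl | h
        · exact Or.inr ⟨by norm_num, Or.inl ⟨by norm_num, rfl⟩⟩
        · left
          have : 3 ^ (3 - 1) ≤ p ^ (3 - 1) := Nat.pow_le_pow_left h _
          norm_num at this ⊢
          omega
  rw [hsplit]
  rcases hkey with h | ⟨h, h'⟩
  · exact Or.inl (Nat.mul_lt_mul_of_pos_right h (pow_pos hp.pos d))
  · exact Or.inr ⟨by rw [h], by rwa [hsplit] at h'⟩

variable {p n : ℕ} [hpf : Fact p.Prime] {H : Subgroup (Space p n ≃ₗ[ZMod p] Space p n)}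
  (hn : 0 < n) (hp' : ¬ p ∣ Nat.card H)
  (htr : ∀ v w : Space p n, v ≠ 0 → w ≠ 0 → ∃ h : H, (h : Space p n ≃ₗ[ZMod p] Space p n) v = w)

include hn hp' htr

set_option maxHeartbeats 800000 in
/-- The semilinear case. -/
theorem semilinear_bound {A : Subgroup H} (hA : A.Normal) (hc : IsMulCommutative A) (hirr : Irred A)
    {v : Space p n} (hv : v ≠ 0) : Bound H v := by
  classical
  haveI := finite_group (H := H)
  haveI := nontrivial_space (p := p) hn
  haveI : Finite (Module.End (ZMod p) (Space p n)) :=
    Finite.of_injective (fun f : Module.End (ZMod p) (Space p n) => (f : Space p n → Space p n))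
      DFunLike.coe_injective
  haveI := hA
  set B := Subgroup.centralizer (A : Set H) with hB
  have hAB : A ≤ B := fun a ha => Subgroup.mem_centralizer_iff.2
    fun b hb => congrArg Subtype.val (hc.is_comm.comm (⟨b, hb⟩ : A) ⟨a, ha⟩)
  have hS0 := isInj_commutant hirr
  have hBc : IsMulCommutative B := IsMulCommutative.of_comm fun a b => Subtype.ext (endHom_injective H (by
    rw [Subgroup.coe_mul, Subgroup.coe_mul, map_mul, map_mul]
    exact hS0.comm (commute_of_mem_commutant.2 a.2) (commute_of_mem_commutant.2 b.2)))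
  have hBn : B.Normal := inferInstance
  have hS := transitive_isInj_of_abelian htr hBn hBc
  obtain ⟨hcyc, hdvd⟩ := hS.isCyclic_and_card_dvd (K := B) fun a ha => mem_alg ha
  haveI := hcyc
  have hrank : finrank (ZMod p) (alg B) = n := by
    rw [← finrank_orb hS hv]
    have htop : orb (alg B) v = ⊤ := by
      refine (hirr _ fun a ha => invUnder_orb B v a (hAB ha)).resolve_left fun h => hv ?_
      have := self_mem_orb (alg B) v
      rwa [h, Submodule.mem_bot] at this
    rw [htop, finrank_top, Module.finrank_fin_fun]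
  rw [natCard_eq_pow, hrank] at hdvd
  have hpow : 1 < p ^ n := Nat.one_lt_pow hn.ne' hpf.out.one_lt
  have ha : Nat.card B ≤ p ^ n - 1 := Nat.le_of_dvd (by omega) hdvd
  obtain ⟨ψ, hfin, -, hψ⟩ := exists_conj_field hS fun g r hr => conj_mem_alg hBn g hr
  haveI := hfin
  letI : Field (alg B) := hS.isField.toField
  haveI : Finite (alg B) := inferInstance
  haveI : IsGalois (ZMod p) (alg B) := inferInstance
  have hker : ψ.ker = B := by
    refine le_antisymm (fun g hg => ?_) fun g hg => MonoidHom.mem_ker.2 ((hψ g).2 fun r hr =>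
      hS.comm (mem_alg hg) hr)
    rw [hB, Subgroup.mem_centralizer_iff]
    intro a ha
    exact (endHom_injective H (by
      rw [map_mul, map_mul, (hψ g).1 (MonoidHom.mem_ker.1 hg) _ (mem_alg (hAB ha))])).symm
  set e := B.index with he
  have hen : e ∣ n := by
    have h1 := Subgroup.card_subgroup_dvd_card ψ.range
    rw [← Subgroup.index_ker, hker, IsGalois.card_aut_eq_finrank] at h1
    rwa [hrank] at h1
  have hpe : ¬ p ∣ e := fun h => hp' (h.trans (Subgroup.index_dvd_card B))
  have hHa : Nat.card H = Nat.card B * e := (Subgroup.card_mul_index B).symm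
  -- the stabiliser
  set C := vecStab H v with hC
  have hCB : ∀ g ∈ C, g ∈ B → g = 1 := fun g hg hgB => by
    have h1 := hS (endHom H g - 1) ((alg B).sub_mem (mem_alg hgB) (alg B).one_mem) v hv (by
      rw [LinearMap.sub_apply, Module.End.one_apply, sub_eq_zero]; exact hg)
    exact endHom_injective H (by rw [map_one]; exact sub_eq_zero.1 h1)
  have hce : Nat.card C ≤ e := by
    rw [he, ← hker, Subgroup.index_ker]
    refine Nat.card_le_card_of_injective (fun g : C => (⟨ψ g, g, rfl⟩ : ψ.range)) fun a b h => ?_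
    have h1 : (a : H) * (b : H)⁻¹ ∈ B := by
      have h' : ψ a = ψ b := congrArg Subtype.val h
      rw [← hker, MonoidHom.mem_ker, map_mul, map_inv, h', mul_inv_cancel]
    exact Subtype.ext (mul_inv_eq_one.1 (hCB _ (C.mul_mem a.2 (C.inv_mem b.2)) h1))
  have hkC : Nat.card (ConjClasses C) ≤ Nat.card C :=
    Nat.card_le_card_of_surjective _ ConjClasses.mk_surjective
  rcases Nat.lt_or_ge e 2 with he1 | he2
  · have he1' : e = 1 := by
      have : e ≠ 0 := Subgroup.index_ne_zero_of_finite
      omega
    have htop : B = ⊤ := Subgroup.index_eq_one.1 he1'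
    have hk : Nat.card (ConjClasses H) ≤ Nat.card H :=
      Nat.card_le_card_of_surjective _ ConjClasses.mk_surjective
    rw [he1', mul_one] at hHa
    refine ⟨by rw [← hC]; omega, fun _ => Or.inl ?_⟩
    haveI : IsCyclic (⊤ : Subgroup H) := htop ▸ hcyc
    exact isCyclic_of_surjective (Subgroup.topEquiv : (⊤ : Subgroup H) ≃* H).toMonoidHom
      Subgroup.topEquiv.surjective
  -- the largest proper subfield
  obtain ⟨d, hd, hdn, hfix⟩ : ∃ d, d ∣ n ∧ d < n ∧
      ∀ g : H, g ∉ B → Nat.card (↥(B ⊓ Subgroup.centralizer ({g} : Set H))) + 1 ≤ p ^ d := by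
    obtain ⟨d, hd, hmax⟩ : ∃ d, (d ∣ n ∧ d < n) ∧ ∀ d', d' ∣ n → d' < n → d' ≤ d := by
      have h1n : 1 < n := lt_of_lt_of_le he2 (Nat.le_of_dvd hn hen)
      have hne : n.properDivisors.Nonempty := ⟨1, Nat.mem_properDivisors.2 ⟨one_dvd n, h1n⟩⟩
      exact ⟨n.properDivisors.max' hne, Nat.mem_properDivisors.1 (Finset.max'_mem _ hne),
        fun d' h1 h2 => Finset.le_max' _ d' (Nat.mem_properDivisors.2 ⟨h1, h2⟩)⟩
    refine ⟨d, hd.1, hd.2, fun g hg => ?_⟩
    set K0 : Subalgebra (ZMod p) (alg B) :=
      (Subalgebra.centralizer (ZMod p) {endHom H g}).comap (alg B).val with hK0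
    let K : IntermediateField (ZMod p) (alg B) := K0.toIntermediateField fun x hx =>
      Subalgebra.inv_mem_of_algebraic K0 (x := ⟨x, hx⟩) (Algebra.IsAlgebraic.isAlgebraic _)
    have hmem : ∀ x : alg B, x ∈ K ↔
        endHom H g * (x : Module.End (ZMod p) (Space p n)) = x * endHom H g := fun x => by
      show (x : Module.End (ZMod p) (Space p n)) ∈ Subalgebra.centralizer (ZMod p) {endHom H g} ↔ _
      rw [Subalgebra.mem_centralizer_iff]
      simp
    have h3 := Module.finrank_mul_finrank (ZMod p) K (alg B)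
    rw [hrank] at h3
    have hne : finrank K (alg B) ≠ 1 := fun h => hg (by
      have h' := IntermediateField.finrank_eq_one_iff_eq_top.1 h
      rw [hB, Subgroup.mem_centralizer_iff]
      intro a ha
      have := (hmem ⟨_, mem_alg (hAB ha)⟩).1 (h' ▸ IntermediateField.mem_top)
      exact (endHom_injective H (by rw [map_mul, map_mul]; exact this.symm)))
    have hdK : finrank (ZMod p) K ≤ d := hmax _ ⟨_, h3.symm⟩ (by
      rcases Nat.eq_zero_or_pos (finrank (ZMod p) K) with h | h
      · omega
      · rcases hf : finrank K (alg B) with _ | _ | j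
        · rw [hf, mul_zero] at h3; omega
        · exact absurd hf hne
        · rw [hf] at h3; nlinarith)
    refine le_trans ?_ (Nat.pow_le_pow_right hpf.out.pos hdK)
    have hcard : Nat.card K = p ^ finrank (ZMod p) K := by
      rw [Module.natCard_eq_pow_finrank (K := ZMod p), Nat.card_zmod]
    rw [← hcard]
    have hmemK : ∀ u : (↥(B ⊓ Subgroup.centralizer ({g} : Set H))),
        (⟨endHom H u.1, mem_alg u.2.1⟩ : alg B) ∈ K := by
      intro u
      rw [hmem]
      show endHom H g * endHom H u.1 = endHom H u.1 * endHom H g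
      rw [← map_mul, ← map_mul, Subgroup.mem_centralizer_singleton_iff.1 u.2.2]
    have hlt : Nat.card (↥(B ⊓ Subgroup.centralizer ({g} : Set H))) < Nat.card K := by
      haveI : Fintype K := Fintype.ofFinite K
      haveI : Fintype ↥(B ⊓ Subgroup.centralizer ({g} : Set H)) := Fintype.ofFinite _
      rw [Nat.card_eq_fintype_card, Nat.card_eq_fintype_card]
      refine Fintype.card_lt_of_injective_of_notMem
        (fun u => (⟨⟨endHom H u.1, mem_alg u.2.1⟩, hmemK u⟩ : K))
        (fun a b h => Subtype.ext (endHom_injective H (congrArg (fun x : K => ((x : alg B) : Module.End (ZMod p) (Space p n))) h)))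
        (b := 0) ?_
      rintro ⟨u, hu⟩
      have h0 : endHom H u.1 = 0 := congrArg (fun x : K => ((x : alg B) : Module.End (ZMod p) (Space p n))) hu
      have := LinearMap.congr_fun h0 v
      rw [endHom_apply, LinearMap.zero_apply, LinearEquiv.map_eq_zero_iff] at this
      exact hv this
    omega
  -- counting commuting pairs
  haveI : Fintype H := Fintype.ofFinite H
  have hcount : Nat.card (ConjClasses H) * Nat.card H =
      ∑ g : H, Nat.card (Subgroup.centralizer ({g} : Set H)) := by
    rw [← card_comm_eq_card_conjClasses_mul_card, ← Nat.card_sigma]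
    exact Nat.card_congr
      { toFun := fun x => ⟨x.1.1, ⟨x.1.2, Subgroup.mem_centralizer_singleton_iff.2 x.2.symm.eq⟩⟩
        invFun := fun s => ⟨(s.1, s.2.1), (Subgroup.mem_centralizer_singleton_iff.1 s.2.2).symm⟩
        left_inv := fun _ => rfl
        right_inv := fun _ => rfl }
  have hswap : ∑ g ∈ Finset.univ.filter (· ∈ B), Nat.card (Subgroup.centralizer ({g} : Set H)) =
      ∑ g : H, Nat.card ↥(B ⊓ Subgroup.centralizer ({g} : Set H)) := by
    simp only [Nat.card_eq_fintype_card, Fintype.card_subtype]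
    simp only [Finset.card_filter, Subgroup.mem_inf, Subgroup.mem_centralizer_singleton_iff, Finset.sum_filter]
    rw [Finset.sum_comm]
    refine Finset.sum_congr rfl fun g _ => ?_
    split_ifs with h
    · refine Finset.sum_congr rfl fun u _ => ?_
      simp [h, eq_comm]
    · simp [h]
  set F := p ^ d - 1
  set a := Nat.card B
  set k := Nat.card (ConjClasses H)
  have hout : ∀ g ∈ Finset.univ.filter (fun g : H => g ∉ B),
      Nat.card (Subgroup.centralizer ({g} : Set H)) ≤ e * F := by
    intro g hg
    have hg' := (Finset.mem_filter.1 hg).2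
    have hfix' := hfix g hg'
    set Z := Subgroup.centralizer ({g} : Set H)
    have h1 : Nat.card Z = B.relIndex Z * Nat.card ↥(B ⊓ Z) := by
      rw [Subgroup.relIndex, ← Subgroup.index_mul_card (B.subgroupOf Z)]
      congr 1
      refine Nat.card_congr ⟨fun x => ⟨x.1.1, x.2, x.1.2⟩, fun x => ⟨⟨x.1, x.2.2⟩, x.2.1⟩, fun _ => rfl,
        fun _ => rfl⟩
    rw [h1]
    refine Nat.mul_le_mul ?_ (by omega)
    rw [he, ← Subgroup.relIndex_top_right]
    exact Subgroup.relIndex_le_of_le_right le_top
      (by rw [Subgroup.relIndex_top_right]; exact Subgroup.index_ne_zero_of_finite)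
  have hin : ∑ g : H, Nat.card ↥(B ⊓ Subgroup.centralizer ({g} : Set H)) ≤
      a * a + (Finset.univ.filter fun g : H => g ∉ B).card * F := by
    rw [← Finset.sum_filter_add_sum_filter_not Finset.univ (· ∈ B)]
    refine Nat.add_le_add ?_ ?_
    · refine (Finset.sum_le_card_nsmul _ _ a fun g _ => Subgroup.card_le_of_le inf_le_left).trans ?_
      rw [smul_eq_mul, show (Finset.univ.filter fun g : H => g ∈ B).card = a by
        simp only [a, Nat.card_eq_fintype_card, Fintype.card_subtype]]
    · exact (Finset.sum_le_card_nsmul _ _ F fun g hg => by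
        have := hfix g (Finset.mem_filter.1 hg).2; omega).trans_eq (smul_eq_mul _ _)
  have hnum : (Finset.univ.filter fun g : H => g ∉ B).card + a = a * e := by
    rw [← hHa]
    simp only [a, Nat.card_eq_fintype_card, Fintype.card_subtype]
    rw [add_comm, Finset.card_filter_add_card_filter_not, Finset.card_univ]
  have hsum : k * (a * e) ≤ a * a + (Finset.univ.filter fun g : H => g ∉ B).card * (F * (e + 1)) := by
    rw [← hHa, hcount, ← Finset.sum_filter_add_sum_filter_not Finset.univ (· ∈ B), hswap]
    have h2 := (Finset.sum_le_card_nsmul _ _ (e * F) hout)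
    rw [smul_eq_mul] at h2
    calc _ ≤ (a * a + (Finset.univ.filter fun g : H => g ∉ B).card * F) +
          (Finset.univ.filter fun g : H => g ∉ B).card * (e * F) := Nat.add_le_add hin h2
      _ = _ := by ring
  have hk : k * e ≤ a + (e - 1) * (F * (e + 1)) := by
    have ha0 : 0 < a := Nat.card_pos
    refine Nat.le_of_mul_le_mul_left ?_ ha0
    obtain ⟨e', he'⟩ : ∃ e', e = e' + 1 := ⟨e - 1, by omega⟩
    have hf : (Finset.univ.filter fun g : H => g ∉ B).card = a * (e - 1) := by
      rw [he', Nat.add_sub_cancel]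
      rw [he', Nat.mul_succ] at hnum
      omega
    rw [hf] at hsum
    rw [show a * (k * e) = k * (a * e) by ring]
    exact hsum.trans_eq (by ring)
  obtain ⟨P, hP⟩ : ∃ P, p ^ d = P + 1 := ⟨p ^ d - 1, by have := Nat.one_le_pow d p hpf.out.pos; omega⟩
  have hF : F = P := by simp only [F]; omega
  rw [hF] at hk
  have hcases := semilinear_arith hpf.out hen hn he2 hpe hd hdn
  rw [hP] at hcases
  set c := Nat.card C
  set kC := Nat.card (ConjClasses C)
  obtain ⟨e', he'⟩ : ∃ e', e = e' + 1 := ⟨e - 1, by omega⟩
  have hmain : (k + kC) * e + 1 ≤ a + 1 + (e - 1) * ((e + 1) * (P + 1)) + 1 := by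
    have h1 : kC * e ≤ e * e := Nat.mul_le_mul_right e (hkC.trans hce)
    have h2 : (e - 1) * (P * (e + 1)) + e * e = (e - 1) * ((e + 1) * (P + 1)) + 1 := by
      rw [he', Nat.add_sub_cancel]; ring
    rw [add_mul]
    omega
  have hq : (p ^ n) * e = p ^ n + (e - 1) * p ^ n := by rw [he', Nat.add_sub_cancel]; ring
  rcases hcases with h | ⟨h, h'⟩
  · have hlt : (e - 1) * ((e + 1) * (P + 1)) < (e - 1) * p ^ n := Nat.mul_lt_mul_of_pos_left h (by omega)
    have : (k + kC) * e < p ^ n * e := by omega
    have := Nat.lt_of_mul_lt_mul_right this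
    exact ⟨this.le, fun heq => absurd heq this.ne⟩
  · rw [h] at hmain
    have hle : (k + kC) * e ≤ p ^ n * e := by omega
    refine ⟨Nat.le_of_mul_le_mul_right hle (by omega), fun heq => Or.inr ?_⟩
    have hae : a + 1 = p ^ n := by
      have : (k + kC) * e = p ^ n * e := by rw [show k + kC = p ^ n from heq]
      omega
    rcases h' with ⟨h8, h3⟩ | ⟨h9, h2⟩
    · refine Or.inl ⟨h8, ?_⟩
      rw [hHa, h3, show a = 7 by omega]
    · refine Or.inr ⟨h9, ?_⟩
      rw [hHa, h2, show a = 8 by omega]

end CfsgLib.CoprimeTransitive
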