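import Cfsg.Agent.Lib.CoprimeTransitive.High
import Cfsg.Agent.S4956

/-!
# From a transitive complement to a transitive linear group
-/

set_option autoImplicit false
set_option linter.unusedSectionVars false
set_option linter.style.haveILetI false

namespace CfsgLib.CoprimeTransitive

open CfsgLib.PermGroups.Regular Module

variable {p n : ℕ} [hpf : Fact p.Prime]

/-- The stabiliser of a vector. -/
def vecStab (H : Subgroup (Space p n ≃ₗ[ZMod p] Space p n)) (v : Space p n) : Subgroup H where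
  carrier := {h | (h : Space p n ≃ₗ[ZMod p] Space p n) v = v}
  one_mem' := rfl
  mul_mem' := fun {a b} ha hb => by
    show (a : Space p n ≃ₗ[ZMod p] Space p n) ((b : Space p n ≃ₗ[ZMod p] Space p n) v) = v
    rw [hb, ha]
  inv_mem' := fun {a} ha => by
    show (a : Space p n ≃ₗ[ZMod p] Space p n).symm v = v
    rw [LinearEquiv.symm_apply_eq]
    exact ha.symm

/-- The bound for a linear group. -/
def Bound (H : Subgroup (Space p n ≃ₗ[ZMod p] Space p n)) (v : Space p n) : Prop :=
  Nat.card (ConjClasses H) + Nat.card (ConjClasses (vecStab H v)) ≤ p ^ n ∧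
    (Nat.card (ConjClasses H) + Nat.card (ConjClasses (vecStab H v)) = p ^ n →
      IsCyclic H ∨ (p ^ n = 8 ∧ Nat.card H = 21) ∨ (p ^ n = 9 ∧ Nat.card H = 16))

theorem card_conjClasses_equiv_kgv {A B : Type*} [Group A] [Group B] [Finite A] (e : A ≃* B) :
    Nat.card (ConjClasses A) = Nat.card (ConjClasses B) := by
  haveI := Finite.of_equiv _ e.toEquiv
  refine Nat.card_eq_of_bijective (ConjClasses.map e.toMonoidHom) ⟨?_, fun c => ?_⟩
  · intro a b hab
    obtain ⟨x, rfl⟩ := ConjClasses.mk_surjective a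
    obtain ⟨y, rfl⟩ := ConjClasses.mk_surjective b
    have h : IsConj (e x) (e y) := ConjClasses.mk_eq_mk_iff_isConj.1 hab
    have h' := e.symm.toMonoidHom.map_isConj h
    simp only [MulEquiv.coe_toMonoidHom, MulEquiv.symm_apply_apply] at h'
    exact ConjClasses.mk_eq_mk_iff_isConj.2 h'
  · obtain ⟨x, rfl⟩ := ConjClasses.mk_surjective c
    exact ⟨ConjClasses.mk (e.symm x), congrArg ConjClasses.mk (e.apply_symm_apply x)⟩

theorem exists_equiv_pi (W : Type*) [AddCommGroup W] [Finite W] [Module (ZMod p) W] :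
    ∃ m : ℕ, Nonempty (W ≃+ Space p m) := by
  haveI : Module.Finite (ZMod p) W := Module.Finite.of_finite
  exact ⟨_, ⟨(Module.finBasis (ZMod p) W).equivFun.toAddEquiv⟩⟩
theorem exists_space {W : Type*} [AddCommGroup W] [Finite W] (hW : ∀ w : W, p • w = 0) :
    ∃ m : ℕ, Nonempty (W ≃+ Space p m) :=
  @exists_equiv_pi p _ W _ _ (AddCommGroup.zmodModule hW)
theorem exists_subgroup_space {X : Type*} [Group X] [Finite X] (V : Subgroup X) (hab : ∀ a ∈ V, ∀ b ∈ V, a * b = b * a) (hW : ∀ v ∈ V, v ^ p = 1) :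
    ∃ (m : ℕ) (b : ↥V ≃ Space p m), ∀ u w, b (u * w) = b u + b w := by
  let : CommGroup ↥V := { (inferInstance : Group ↥V) with
    mul_comm := fun a b => Subtype.ext (hab a a.2 b b.2) }
  obtain ⟨m, ⟨b⟩⟩ := exists_space (p := p) (W := Additive ↥V) fun a =>
    congrArg Additive.ofMul (Subtype.ext (hW _ a.toMul.2) : a.toMul ^ p = 1)
  exact ⟨m, Additive.ofMul.trans b.toEquiv, fun u w => b.map_add (Additive.ofMul u) (Additive.ofMul w)⟩

/-- The reduction. -/
theorem reduce {X : Type*} [Group X] [Finite X] (V : Subgroup X) [V.Normal]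
    (hVexp : ∀ v ∈ V, v ^ p = 1) (hidx : ¬ p ∣ V.index) (hself : Subgroup.centralizer (V : Set X) = V)
    (G : Subgroup X) (hGV : Subgroup.IsComplement' V G)
    (htrans : ∀ v ∈ V, ∀ w ∈ V, v ≠ 1 → w ≠ 1 → ∃ g ∈ G, g * v * g⁻¹ = w)
    (main : ∀ (m : ℕ) (H : Subgroup (Space p m ≃ₗ[ZMod p] Space p m)), 0 < m → ¬ p ∣ Nat.card H →
      (∀ v w : Space p m, v ≠ 0 → w ≠ 0 → ∃ h : H, (h : Space p m ≃ₗ[ZMod p] Space p m) v = w) →
      ∀ v : Space p m, v ≠ 0 → Bound H v) :
    Nat.card (ConjClasses X) ≤ Nat.card V ∧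
      (Nat.card (ConjClasses X) = Nat.card V →
        (IsCyclic G ∨ (Nat.card V = 8 ∧ Nat.card G = 21) ∨ (Nat.card V = 9 ∧ Nat.card G = 16))) := by
  classical
  have hab : ∀ a ∈ V, ∀ b ∈ V, a * b = b * a := fun a ha b hb =>
    (Subgroup.mem_centralizer_iff.1 (hself.symm ▸ hb : b ∈ Subgroup.centralizer (V : Set X)) a ha)
  rcases eq_or_ne V ⊥ with hbot | hbot
  · have hX : ∀ x : X, x = 1 := fun x => by
      have : x ∈ Subgroup.centralizer (V : Set X) := by
        rw [hbot, Subgroup.mem_centralizer_iff]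
        intro h hh
        rw [SetLike.mem_coe, Subgroup.mem_bot] at hh
        rw [hh, one_mul, mul_one]
      rwa [hself, hbot, Subgroup.mem_bot] at this
    haveI : Subsingleton X := ⟨fun a b => (hX a).trans (hX b).symm⟩
    refine ⟨?_, fun _ => Or.inl inferInstance⟩
    haveI : Subsingleton (ConjClasses X) := ConjClasses.mk_surjective.subsingleton
    exact (Finite.card_le_one_iff_subsingleton.2 inferInstance).trans Nat.card_pos
  obtain ⟨m, b, hadd⟩ := exists_subgroup_space (p := p) V hab hVexp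
  have hVcard : Nat.card V = p ^ m := by
    rw [← card_space (p := p) (n := m)]
    exact Nat.card_congr b
  have hm0 : 0 < m := by
    by_contra h
    rw [show m = 0 by omega, pow_zero] at hVcard
    exact hbot ((Subgroup.card_eq_one).1 hVcard)
  have hb1 : b 1 = 0 := by
    have h := hadd 1 1
    rw [mul_one] at h
    exact left_eq_add.1 h
  let φ : ↥G →* MulAut ↥V := (MulAut.conjNormal : X →* MulAut ↥V).comp G.subtype
  have hφ : ∀ (g : G) (u : V), ((φ g u : V) : X) = g * u * (g : X)⁻¹ := fun g u => rfl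
  let A : G → (Space p m ≃+ Space p m) := fun g =>
    { toEquiv := b.symm.trans ((φ g).toEquiv.trans b)
      map_add' := fun x y => by
        obtain ⟨u, rfl⟩ := b.surjective x
        obtain ⟨w, rfl⟩ := b.surjective y
        simp [← hadd] }
  let L : G → (Space p m ≃ₗ[ZMod p] Space p m) := fun g =>
    (A g).toLinearEquiv fun c x => ZMod.map_smul (A g).toAddMonoidHom c x
  have hL : ∀ (g : G) (u : V), L g (b u) = b (φ g u) := fun g u => by simp [L, A]
  let Φ : G →* (Space p m ≃ₗ[ZMod p] Space p m) := MonoidHom.mk' L fun g h => LinearEquiv.ext fun x => by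
    obtain ⟨u, rfl⟩ := b.surjective x
    show L (g * h) (b u) = L g (L h (b u))
    rw [hL, hL, hL, map_mul]
    rfl
  have hΦinj : Function.Injective Φ := by
    refine (injective_iff_map_eq_one _).2 fun g hg => ?_
    have hgC : (g : X) ∈ Subgroup.centralizer (V : Set X) := by
      rw [Subgroup.mem_centralizer_iff]
      intro u hu
      have h1 : L g (b ⟨u, hu⟩) = b ⟨u, hu⟩ :=
        LinearEquiv.congr_fun hg _
      rw [hL] at h1
      have h2 : ((φ g ⟨u, hu⟩ : V) : X) = u :=
        congrArg Subtype.val (b.injective h1)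
      rw [hφ] at h2
      exact (mul_inv_eq_iff_eq_mul.1 h2).symm
    rw [hself] at hgC
    exact Subtype.ext (Subgroup.disjoint_def.mp hGV.disjoint hgC g.2)
  set H := Φ.range with hH
  obtain ⟨e, he⟩ : ∃ e : G ≃* H, ∀ g, ((e g : H) : Space p m ≃ₗ[ZMod p] Space p m) = L g :=
    ⟨MonoidHom.ofInjective hΦinj, fun _ => rfl⟩
  haveI : Finite H := Finite.of_equiv _ e.toEquiv
  have hGcard : Nat.card H = Nat.card G := (Nat.card_congr e.toEquiv).symm
  have hidxG : V.index = Nat.card G := hGV.symm.index_eq_card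
  have hp' : ¬ p ∣ Nat.card H := by rw [hGcard, ← hidxG]; exact hidx
  have htr : ∀ v w : Space p m, v ≠ 0 → w ≠ 0 →
      ∃ h : H, (h : Space p m ≃ₗ[ZMod p] Space p m) v = w := by
    intro v w hv hw
    obtain ⟨a, rfl⟩ := b.surjective v
    obtain ⟨c, rfl⟩ := b.surjective w
    have hne : ∀ u : V, b u ≠ 0 → (u : X) ≠ 1 := fun u hu h => hu (by
      obtain rfl : u = 1 := Subtype.ext h
      exact hb1)
    obtain ⟨g, hg, hga⟩ := htrans _ a.2 _ c.2 (hne a hv) (hne c hw)
    refine ⟨e ⟨g, hg⟩, ?_⟩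
    rw [he, hL]
    exact congrArg _ (Subtype.ext hga)
  obtain ⟨v, hvV, hv1⟩ : ∃ v, v ∈ V ∧ v ≠ 1 := by
    by_contra h
    push Not at h
    exact hbot ((Subgroup.eq_bot_iff_forall V).2 h)
  set w := b ⟨v, hvV⟩ with hw
  have hw0 : w ≠ 0 := fun h => hv1
    (congrArg Subtype.val (show (⟨v, hvV⟩ : V) = 1 from b.injective (h.trans hb1.symm)))
  have hb := main m H hm0 hp' htr w hw0
  let C : Subgroup X := G ⊓ Subgroup.centralizer ({v} : Set X)
  have hCmem : ∀ g : G, (g : X) ∈ C ↔ e g ∈ vecStab H w := by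
    intro g
    show (g : X) ∈ C ↔ ((e g : H) : Space p m ≃ₗ[ZMod p] Space p m) w = w
    rw [he, hw, hL, b.injective.eq_iff]
    simp only [C, Subgroup.mem_inf, SetLike.coe_mem, true_and, Subgroup.mem_centralizer_singleton_iff,
      Subtype.ext_iff, hφ, mul_inv_eq_iff_eq_mul]
  let eC : ↥C ≃* ↥(vecStab H w) :=
    { toFun := fun c => ⟨e ⟨c, c.2.1⟩, (hCmem ⟨c, c.2.1⟩).1 c.2⟩
      invFun := fun c => ⟨(e.symm c : G), (hCmem _).2 (by rw [MulEquiv.apply_symm_apply]; exact c.2)⟩
      left_inv := fun c => Subtype.ext (by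
        show ((e.symm (e ⟨c, c.2.1⟩) : G) : X) = c
        rw [MulEquiv.symm_apply_apply])
      right_inv := fun c => Subtype.ext (e.apply_symm_apply c.1)
      map_mul' := fun c d => Subtype.ext (map_mul e ⟨c, c.2.1⟩ ⟨d, d.2.1⟩) }
  have hk := Cfsg.Agent.S4956.result V hab G hGV (by
      rw [hVcard]
      exact (Nat.Coprime.pow_left _ ((hpf.out.coprime_iff_not_dvd).2 (hidxG ▸ hidx))))
    {1, v} (by
      intro s hs
      rcases Finset.mem_insert.1 hs with rfl | hs
      · exact V.one_mem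
      · exact (Finset.mem_singleton.1 hs) ▸ hvV) (by
      intro u hu
      rcases eq_or_ne u 1 with rfl | hu1
      · refine ⟨1, ⟨by simp, 1, G.one_mem, by simp⟩, ?_⟩
        rintro s ⟨-, g, -, rfl⟩
        simp
      · obtain ⟨g, hg, hguv⟩ := htrans u hu v hvV hu1 hv1
        refine ⟨v, ⟨by simp, g, hg, hguv⟩, ?_⟩
        rintro s ⟨hs, g', -, hgs⟩
        rcases Finset.mem_insert.1 hs with rfl | hs
        · exfalso
          rw [mul_inv_eq_one] at hgs
          exact hu1 (mul_eq_left.1 hgs)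
        · exact Finset.mem_singleton.1 hs)
  rw [Finset.sum_insert (by simpa using Ne.symm hv1), Finset.sum_singleton] at hk
  have hG1 : Nat.card (ConjClasses ↥(G ⊓ Subgroup.centralizer ({1} : Set X))) =
      Nat.card (ConjClasses H) := by
    have h1 : G ⊓ Subgroup.centralizer ({1} : Set X) = G := inf_eq_left.2 fun x _ =>
      Subgroup.mem_centralizer_singleton_iff.2 (by simp)
    rw [h1]
    exact card_conjClasses_equiv_kgv e
  rw [hG1, card_conjClasses_equiv_kgv eC] at hk
  rw [hk, hVcard]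
  refine ⟨hb.1, fun h => ?_⟩
  rw [← hGcard]
  rcases hb.2 h with hc | h | h
  · exact Or.inl (isCyclic_of_surjective e.symm.toMonoidHom e.symm.surjective)
  · exact Or.inr (Or.inl h)
  · exact Or.inr (Or.inr h)

/-- The order of the general linear group. -/
theorem card_GL (p m : ℕ) [Fact p.Prime] :
    Nat.card (Space p m ≃ₗ[ZMod p] Space p m) = ∏ i : Fin m, (p ^ m - p ^ (i : ℕ)) := by
  rw [← Nat.card_congr ((Matrix.GeneralLinearGroup.toLin (n := Fin m) (R := ZMod p)).trans
    (LinearMap.GeneralLinearGroup.generalLinearEquiv (ZMod p) (Space p m))).toEquiv,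
    Matrix.card_GL_field, ZMod.card]

end CfsgLib.CoprimeTransitive
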